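import Mathlib

/-!
# Grids of signed three element sets

The combinatorial core of the construction of cyclic TI families: a grid of three element sets
of signed points in which two sets in one line share exactly one point with the same sign and two
sets in general position are orthogonal has a centre for each line as soon as one side has at
least four lines.
-/

set_option autoImplicit false

namespace CfsgLib.TriLines

variable {S : Type*} [DecidableEq S]

/-- The elements of `A` whose opposite lies in `B`. -/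
def opp (ν : S → S) (A B : Finset S) : Finset S := A.filter fun e => ν e ∈ B

/-- Inner product one. -/
def Col (ν : S → S) (A B : Finset S) : Prop := (A ∩ B).card = 1 ∧ (opp ν A B).card = 0

/-- Inner product zero. -/
def NonCol (ν : S → S) (A B : Finset S) : Prop :=
  (A ∩ B).card = (opp ν A B).card ∧ (A ∩ B).card ≤ 1

variable {ν : S → S}

theorem opp_card_comm (hν : Function.Involutive ν) (A B : Finset S) :
    (opp ν A B).card = (opp ν B A).card := by
  refine Finset.card_nbij' ν ν ?_ ?_ (fun e _ => hν e) (fun e _ => hν e)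
  · intro e he
    simp only [Finset.mem_coe, opp, Finset.mem_filter] at he ⊢
    exact ⟨he.2, by rw [hν e]; exact he.1⟩
  · intro e he
    simp only [Finset.mem_coe, opp, Finset.mem_filter] at he ⊢
    exact ⟨he.2, by rw [hν e]; exact he.1⟩

theorem Col.symm (hν : Function.Involutive ν) {A B : Finset S} (h : Col ν A B) : Col ν B A :=
  ⟨by rw [Finset.inter_comm]; exact h.1, by rw [opp_card_comm hν]; exact h.2⟩

theorem NonCol.symm (hν : Function.Involutive ν) {A B : Finset S} (h : NonCol ν A B) :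
    NonCol ν B A :=
  ⟨by rw [Finset.inter_comm, opp_card_comm hν B A]; exact h.1,
    by rw [Finset.inter_comm]; exact h.2⟩

theorem Col.no_opp {A B : Finset S} (h : Col ν A B) {e : S} (he : e ∈ A) : ν e ∉ B := fun h' => by
  have := Finset.card_eq_zero.mp h.2
  exact Finset.notMem_empty e (this ▸ Finset.mem_filter.mpr ⟨he, h'⟩)

theorem Col.unique {A B : Finset S} (h : Col ν A B) {e e' : S} (he : e ∈ A) (he' : e ∈ B)
    (hf : e' ∈ A) (hf' : e' ∈ B) : e = e' :=
  Finset.card_le_one.mp h.1.le e (Finset.mem_inter.mpr ⟨he, he'⟩) e'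
    (Finset.mem_inter.mpr ⟨hf, hf'⟩)

theorem Col.exists_mem {A B : Finset S} (h : Col ν A B) : ∃ e, e ∈ A ∧ e ∈ B := by
  obtain ⟨e, he⟩ := Finset.card_pos.mp (h.1.symm ▸ one_pos)
  exact ⟨e, Finset.mem_inter.mp he⟩

theorem NonCol.exists_opp {A B : Finset S} (h : NonCol ν A B) {e : S} (he : e ∈ A)
    (he' : e ∈ B) : ∃ q ∈ A, ν q ∈ B := by
  obtain ⟨q, hq⟩ := Finset.card_pos.mp
    (h.1 ▸ Finset.card_pos.mpr ⟨e, Finset.mem_inter.mpr ⟨he, he'⟩⟩)
  exact ⟨q, Finset.mem_filter.mp hq⟩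

theorem NonCol.exists_same {A B : Finset S} (h : NonCol ν A B) {q : S} (hq : q ∈ A)
    (hq' : ν q ∈ B) : ∃ e ∈ A, e ∈ B := by
  obtain ⟨e, he⟩ := Finset.card_pos.mp (h.1.symm ▸ Finset.card_pos.mpr
    ⟨q, Finset.mem_filter.mpr ⟨hq, hq'⟩⟩)
  exact ⟨e, Finset.mem_inter.mp he⟩

/-- The signed multiplicity. -/
def val (ν : S → S) (B : Finset S) (e : S) : ℤ := if e ∈ B then 1 else if ν e ∈ B then -1 else 0

theorem sum_val {B L : Finset S} (hB : ∀ e ∈ B, ν e ∉ B) :
    ∑ e ∈ L, val ν B e = ((L ∩ B).card : ℤ) - (opp ν L B).card := by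
  have hval : ∀ e, val ν B e = (if e ∈ B then 1 else 0) - (if ν e ∈ B then 1 else 0) := fun e => by
    unfold val
    by_cases h : e ∈ B
    · rw [if_pos h, if_pos h, if_neg (hB e h)]; norm_num
    · rw [if_neg h, if_neg h]; split <;> norm_num
  rw [Finset.sum_congr rfl fun e _ => hval e, Finset.sum_sub_distrib, Finset.sum_boole,
    Finset.sum_boole, Finset.filter_mem_eq_inter]
  rfl

/-- Two rows of the grid. -/
structure TwoRows {J : Type*} (ν : S → S) (L B : J → Finset S) : Prop where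
  invol : Function.Involutive ν
  cardL : ∀ j, (L j).card = 3
  cardB : ∀ j, (B j).card = 3
  oppL : ∀ j k, ∀ e ∈ L j, ν e ∉ L k
  oppB : ∀ j k, ∀ e ∈ B j, ν e ∉ B k
  colL : ∀ j k, j ≠ k → Col ν (L j) (L k)
  colB : ∀ j k, j ≠ k → Col ν (B j) (B k)
  col : ∀ j, Col ν (B j) (L j)
  non : ∀ j k, j ≠ k → NonCol ν (B j) (L k)

variable {J : Type*} {L B : J → Finset S}

theorem TwoRows.sum_val_line (H : TwoRows ν L B) [DecidableEq J] (k j : J) :
    ∑ e ∈ L j, val ν (B k) e = if j = k then 1 else 0 := by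
  rw [sum_val (H.oppB k k)]
  by_cases h : j = k
  · subst h
    rw [if_pos rfl, ((H.col j).symm H.invol).1, ((H.col j).symm H.invol).2]
    norm_num
  · rw [if_neg h, ((H.non k j (Ne.symm h)).symm H.invol).1, sub_self]

theorem no_quad (H : TwoRows ν L B) (k : J) (four : Finset J) (hk : k ∈ four)
    (heven : ∀ e, Even (four.filter fun j => e ∈ L j).card) : False := by
  classical
  have h1 : ∑ j ∈ four, ∑ e ∈ L j, val ν (B k) e = 1 := by
    rw [Finset.sum_congr rfl fun j _ => H.sum_val_line k j, Finset.sum_ite_eq', if_pos hk]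
  rw [Finset.sum_comm' (t' := four.biUnion L) (s' := fun e => four.filter fun j => e ∈ L j)
    (fun j e => by
      simp only [Finset.mem_filter, Finset.mem_biUnion]
      exact ⟨fun h => ⟨h, j, h.1, h.2⟩, fun h => h.1⟩)] at h1
  have h2 : (2 : ℤ) ∣ 1 := by
    rw [← h1]
    refine Finset.dvd_sum fun e _ => ?_
    rw [Finset.sum_const, nsmul_eq_mul]
    exact dvd_mul_of_dvd_left (by exact_mod_cast even_iff_two_dvd.mp (heven e)) _
  norm_num at h2

/-! ### The finite check for three concurrent lines and a transversal -/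

/-- Allowed restrictions of the four sets to the seven points. -/
def triCands : Fin 4 → List (List ℤ)
  | 0 => [[0, 0, 1, 0, 0, 0, 0], [0, 1, 0, -1, 1, 0, 0], [0, 1, 0, 0, 0, -1, 1],
      [1, 0, 0, 0, -1, 0, -1]]
  | 1 => [[0, -1, 1, 1, 0, 0, 0], [0, 0, 0, 0, 1, 0, 0], [0, 0, 0, 1, 0, -1, 1],
      [1, 0, -1, 0, 0, 0, -1]]
  | 2 => [[0, -1, 1, 0, 0, 1, 0], [0, 0, 0, -1, 1, 1, 0], [0, 0, 0, 0, 0, 0, 1],
      [1, 0, -1, 0, -1, 0, 0]]
  | 3 => [[0, 0, 0, 0, 0, 1, -1], [0, 0, 0, 1, -1, 0, 0], [0, 1, -1, 0, 0, 0, 0]]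

/-- Compatibility of two restrictions. -/
def TriOK (u v : List ℤ) : Prop :=
  ((List.zipWith (fun a b => a * b) u v).map fun a => |a|).sum ≤ 1 ∧
    (∀ a ∈ List.zipWith (fun a b => a * b) u v, a ≠ -1) ∧
    (((u.map fun a => |a|).sum = 3 ∨ (v.map fun a => |a|).sum = 3) →
      ((List.zipWith (fun a b => a * b) u v).map fun a => |a|).sum = 1)

instance (u v : List ℤ) : Decidable (TriOK u v) := by unfold TriOK; infer_instance

/-- The check of a single restriction. -/
def CandOK (k : Fin 4) (p a₁ a₂ a₃ b₁ b₂ b₃ : ℤ) : Prop :=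
  a₁ + a₂ + a₃ = (if k = 3 then 1 else 0) →
    b₁ ∈ ([-1, 0, 1] : List ℤ) → b₂ ∈ ([-1, 0, 1] : List ℤ) → b₃ ∈ ([-1, 0, 1] : List ℤ) →
    |p| + |a₁| + |b₁| + |a₂| + |b₂| + |a₃| + |b₃| ≤ 3 →
    [p, a₁, b₁, a₂, b₂, a₃, b₃] ∈ triCands k

instance (k : Fin 4) (p a₁ a₂ a₃ b₁ b₂ b₃ : ℤ) : Decidable (CandOK k p a₁ a₂ a₃ b₁ b₂ b₃) := by
  unfold CandOK; infer_instance

theorem tri_cand : ∀ k : Fin 4, ∀ p ∈ ([-1, 0, 1] : List ℤ), ∀ a₁ ∈ ([-1, 0, 1] : List ℤ),
    ∀ a₂ ∈ ([-1, 0, 1] : List ℤ), ∀ a₃ ∈ ([-1, 0, 1] : List ℤ),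
    CandOK k p a₁ a₂ a₃ ((if k = 0 then 1 else 0) - p - a₁) ((if k = 1 then 1 else 0) - p - a₂)
      ((if k = 2 then 1 else 0) - p - a₃) := by
  decide +kernel

theorem tri_none : ∀ u₀ ∈ triCands 0, ∀ u₁ ∈ triCands 1, ∀ u₂ ∈ triCands 2, ∀ u₃ ∈ triCands 3,
    ¬ (TriOK u₀ u₁ ∧ TriOK u₀ u₂ ∧ TriOK u₀ u₃ ∧ TriOK u₁ u₂ ∧ TriOK u₁ u₃ ∧ TriOK u₂ u₃) := by
  decide +kernel

theorem val_mem (B : Finset S) (e : S) : val ν B e ∈ ([-1, 0, 1] : List ℤ) := by
  unfold val; split_ifs <;> simp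

theorem TwoRows.exists_third (H : TwoRows ν L B) {j : J} {x y : S} (hx : x ∈ L j) (hy : y ∈ L j)
    (hxy : x ≠ y) : ∃ z, z ≠ x ∧ z ≠ y ∧ L j = {x, y, z} := by
  obtain ⟨z, hz⟩ : ∃ z, (((L j).erase x).erase y) = {z} := by
    refine Finset.card_eq_one.mp ?_
    rw [Finset.card_erase_of_mem (Finset.mem_erase.mpr ⟨hxy.symm, hy⟩),
      Finset.card_erase_of_mem hx, H.cardL]
  have hz' : z ∈ (((L j).erase x).erase y) := hz ▸ Finset.mem_singleton_self z
  simp only [Finset.mem_erase] at hz'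
  refine ⟨z, hz'.2.1, hz'.1, ?_⟩
  rw [show ({x, y, z} : Finset S) = insert x (insert y {z}) from rfl, ← hz,
    Finset.insert_erase (Finset.mem_erase.mpr ⟨hxy.symm, hy⟩), Finset.insert_erase hx]

theorem sum_triple {α : Type*} [DecidableEq α] (f : α → ℤ) {x y z : α} (h1 : x ≠ y) (h2 : z ≠ x)
    (h3 : z ≠ y) : ∑ e ∈ ({x, y, z} : Finset α), f e = f x + f y + f z := by
  rw [Finset.sum_insert (by simp [h1, h2.symm]), Finset.sum_pair h3.symm]
  ring

theorem TwoRows.ok (H : TwoRows ν L B) {l : List S} (hl : l.Nodup)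
    (hmem : ∀ e ∈ l, ∃ j, e ∈ L j) {k k' : J} (hkk : k ≠ k') :
    TriOK (l.map (val ν (B k))) (l.map (val ν (B k'))) := by
  classical
  have hopp : ∀ e ∈ l, ∀ e' ∈ l, e ≠ ν e' := fun e he e' he' h => by
    obtain ⟨j, hj⟩ := hmem e he
    obtain ⟨j', hj'⟩ := hmem e' he'
    exact H.oppL j' j e' hj' (h ▸ hj)
  let g : Finset S → S → S := fun C e => if e ∈ C then e else ν e
  have hg : ∀ (C : Finset S), ∀ e ∈ l, ∀ e' ∈ l, g C e = g C e' → e = e' := by
    intro C e he e' he' h
    simp only [g] at h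
    split_ifs at h
    · exact h
    · exact absurd h (hopp e he e' he')
    · exact absurd h.symm (hopp e' he' e he)
    · exact H.invol.injective h
  have hgmem : ∀ (C : Finset S) (e : S), val ν C e ≠ 0 → g C e ∈ C := by
    intro C e h
    by_cases h1 : e ∈ C
    · simpa [g, h1] using h1
    · by_cases h2 : ν e ∈ C
      · simpa [g, h1] using h2
      · exact absurd (by simp [val, h1, h2]) h
  have habs : ∀ (C : Finset S) (e : S), |val ν C e| = if val ν C e = 0 then 0 else 1 := by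
    intro C e
    unfold val
    split_ifs <;> simp_all
  have hprod : ∀ e, val ν (B k) e * val ν (B k') e ≠ -1 := by
    intro e h
    unfold val at h
    split_ifs at h with a b c d f <;> norm_num at h
    · exact (H.colB k k' hkk).no_opp a (by assumption)
    · exact (H.colB k' k hkk.symm).no_opp (by assumption) (by assumption)
  have hsame : ∀ e, val ν (B k) e ≠ 0 → val ν (B k') e ≠ 0 →
      g (B k) e ∈ B k ∧ g (B k) e ∈ B k' := by
    intro e h h'
    refine ⟨hgmem _ e h, ?_⟩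
    have := hprod e
    unfold val at this h h'
    split_ifs at this h h' with a b c d f <;> simp_all [g]
  have hzip : List.zipWith (fun a b => a * b) (l.map (val ν (B k))) (l.map (val ν (B k'))) =
      l.map fun e => val ν (B k) e * val ν (B k') e := by
    rw [List.zipWith_map, List.zipWith_self]
  have hsum : ((l.map fun e => val ν (B k) e * val ν (B k') e).map fun a => |a|).sum =
      ((l.toFinset.filter fun e => val ν (B k) e ≠ 0 ∧ val ν (B k') e ≠ 0).card : ℤ) := by
    rw [List.map_map, ← List.sum_toFinset _ hl, ← Finset.sum_boole]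
    refine Finset.sum_congr rfl fun e _ => ?_
    simp only [Function.comp_apply, abs_mul, habs]
    split_ifs <;> simp_all
  have hsum1 : ∀ C : Finset S, ((l.map (val ν C)).map fun a => |a|).sum =
      ((l.toFinset.filter fun e => val ν C e ≠ 0).card : ℤ) := by
    intro C
    rw [List.map_map, ← List.sum_toFinset _ hl, ← Finset.sum_boole]
    refine Finset.sum_congr rfl fun e _ => ?_
    simp only [Function.comp_apply, habs]
    split_ifs <;> simp_all
  have hle : (l.toFinset.filter fun e => val ν (B k) e ≠ 0 ∧ val ν (B k') e ≠ 0).card ≤ 1 := by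
    refine Finset.card_le_one.mpr fun e he e' he' => ?_
    simp only [Finset.mem_filter, List.mem_toFinset] at he he'
    obtain ⟨h1, h2⟩ := hsame e he.2.1 he.2.2
    obtain ⟨h3, h4⟩ := hsame e' he'.2.1 he'.2.2
    exact hg (B k) e he.1 e' he'.1 ((H.colB k k' hkk).unique h1 h2 h3 h4)
  refine ⟨?_, ?_, ?_⟩
  · rw [hzip, hsum]; exact_mod_cast hle
  · rw [hzip]
    intro a ha
    obtain ⟨e, -, rfl⟩ := List.mem_map.mp ha
    exact hprod e
  · intro h3
    rw [hzip, hsum]
    rw [hsum1, hsum1] at h3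
    norm_cast at h3 ⊢
    refine le_antisymm hle (Finset.card_pos.mpr ?_)
    obtain ⟨w, hw, hw'⟩ := (H.colB k k' hkk).exists_mem
    have hfull : ∀ i, (l.toFinset.filter fun e => val ν (B i) e ≠ 0).card = 3 →
        ∀ w ∈ B i, ∃ e ∈ l, w = e ∨ w = ν e := by
      intro i hi w hw
      have him : (l.toFinset.filter fun e => val ν (B i) e ≠ 0).image (g (B i)) = B i := by
        refine Finset.eq_of_subset_of_card_le ?_ ?_
        · intro y hy
          obtain ⟨e, he, rfl⟩ := Finset.mem_image.mp hy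
          exact hgmem _ e (Finset.mem_filter.mp he).2
        · rw [Finset.card_image_of_injOn, hi, H.cardB]
          intro e he e' he' h
          exact hg _ e (List.mem_toFinset.mp (Finset.mem_filter.mp he).1) e'
            (List.mem_toFinset.mp (Finset.mem_filter.mp he').1) h
      rw [← him] at hw
      obtain ⟨e, he, h⟩ := Finset.mem_image.mp hw
      refine ⟨e, List.mem_toFinset.mp (Finset.mem_filter.mp he).1, ?_⟩
      simp only [g] at h
      split_ifs at h
      · exact Or.inl h.symm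
      · exact Or.inr h.symm
    obtain ⟨e, he, hwe⟩ : ∃ e ∈ l, w = e ∨ w = ν e := by
      rcases h3 with h3 | h3
      exacts [hfull k h3 w hw, hfull k' h3 w hw']
    have hne : ∀ i, w ∈ B i → val ν (B i) e ≠ 0 := by
      intro i hwi
      rcases hwe with h | h
      · rw [val, if_pos (h ▸ hwi)]; exact one_ne_zero
      · rw [val, if_neg (fun h' => H.oppB i i e h' (h ▸ hwi)), if_pos (h ▸ hwi)]; norm_num
    exact ⟨e, Finset.mem_filter.mpr ⟨List.mem_toFinset.mpr he, hne k hw, hne k' hw'⟩⟩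

theorem TwoRows.sum_abs_le (H : TwoRows ν L B) {l : List S} (hl : l.Nodup)
    (hmem : ∀ e ∈ l, ∃ j, e ∈ L j) (k : J) :
    ((l.map (val ν (B k))).map fun a => |a|).sum ≤ 3 := by
  classical
  rw [List.map_map, ← List.sum_toFinset _ hl]
  calc ∑ e ∈ l.toFinset, ((fun a => |a|) ∘ val ν (B k)) e
      = ∑ e ∈ l.toFinset, if val ν (B k) e = 0 then (0 : ℤ) else 1 := by
        refine Finset.sum_congr rfl fun e _ => ?_
        simp only [Function.comp_apply, val]
        split_ifs <;> simp_all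
    _ = ((l.toFinset.filter fun e => val ν (B k) e ≠ 0).card : ℤ) := by
        rw [← Finset.sum_boole]
        exact Finset.sum_congr rfl fun e _ => by split_ifs <;> simp_all
    _ ≤ 3 := by
        refine le_of_le_of_eq (Nat.cast_le.mpr (Finset.card_le_card_of_injOn (t := B k)
          (fun e => if e ∈ B k then e else ν e) ?_ ?_)) (by rw [H.cardB k]; norm_num)
        · intro e he
          have h0 := (Finset.mem_filter.mp (Finset.mem_coe.mp he)).2
          unfold val at h0
          simp only [Finset.mem_coe]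
          split_ifs at h0 ⊢ with h1 h2
          · exact h1
          · exact h2
          · exact absurd rfl h0
        · intro e he e' he' h
          simp only [Finset.mem_coe, Finset.mem_filter, List.mem_toFinset] at he he'
          obtain ⟨j, hj⟩ := hmem e he.1
          obtain ⟨j', hj'⟩ := hmem e' he'.1
          simp only at h
          split_ifs at h
          · exact h
          · exact absurd (h ▸ hj) (H.oppL j' j e' hj')
          · exact absurd (h.symm ▸ hj') (H.oppL j j' e hj)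
          · exact H.invol.injective h

theorem no_tri (H : TwoRows ν L B) {a b d c : J} (hab : a ≠ b) (had : a ≠ d) (hbd : b ≠ d)
    (hac : a ≠ c) (hbc : b ≠ c) (hdc : d ≠ c) {p : S} (hpa : p ∈ L a) (hpb : p ∈ L b)
    (hpd : p ∈ L d) (hpc : p ∉ L c) : False := by
  classical
  obtain ⟨a₁, ha₁, ha₁c⟩ := (H.colL a c hac).exists_mem
  obtain ⟨a₂, ha₂, ha₂c⟩ := (H.colL b c hbc).exists_mem
  obtain ⟨a₃, ha₃, ha₃c⟩ := (H.colL d c hdc).exists_mem
  have hp1 : p ≠ a₁ := fun h => hpc (h ▸ ha₁c)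
  have hp2 : p ≠ a₂ := fun h => hpc (h ▸ ha₂c)
  have hp3 : p ≠ a₃ := fun h => hpc (h ▸ ha₃c)
  have huniq : ∀ {i j : J}, i ≠ j → p ∈ L i → p ∈ L j → ∀ e ∈ L i, e ∈ L j → e = p :=
    fun h hi hj e he he' => (H.colL _ _ h).unique he he' hi hj
  have h12 : a₁ ≠ a₂ := fun h => hp1 (huniq hab hpa hpb a₁ ha₁ (h ▸ ha₂)).symm
  have h13 : a₁ ≠ a₃ := fun h => hp1 (huniq had hpa hpd a₁ ha₁ (h ▸ ha₃)).symm
  have h23 : a₂ ≠ a₃ := fun h => hp2 (huniq hbd hpb hpd a₂ ha₂ (h ▸ ha₃)).symm
  obtain ⟨b₁, hb1p, hb1a, hLa⟩ := H.exists_third hpa ha₁ hp1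
  obtain ⟨b₂, hb2p, hb2a, hLb⟩ := H.exists_third hpb ha₂ hp2
  obtain ⟨b₃, hb3p, hb3a, hLd⟩ := H.exists_third hpd ha₃ hp3
  have hb₁ : b₁ ∈ L a := by rw [hLa]; simp
  have hb₂ : b₂ ∈ L b := by rw [hLb]; simp
  have hb₃ : b₃ ∈ L d := by rw [hLd]; simp
  have hLc : L c = {a₁, a₂, a₃} := by
    refine (Finset.eq_of_subset_of_card_le ?_ ?_).symm
    · simp [Finset.insert_subset_iff, ha₁c, ha₂c, ha₃c]
    · rw [H.cardL, Finset.card_eq_three.mpr ⟨a₁, a₂, a₃, h12, h13, h23, rfl⟩]
  have hnd : ([p, a₁, b₁, a₂, b₂, a₃, b₃] : List S).Nodup := by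
    simp only [List.nodup_cons, List.mem_cons, List.not_mem_nil, or_false, not_or,
      List.nodup_nil, and_true, not_false_eq_true]
    refine ⟨⟨hp1, hb1p.symm, hp2, hb2p.symm, hp3, hb3p.symm⟩,
      ⟨hb1a.symm, h12, ?_, h13, ?_⟩, ⟨?_, ?_, ?_, ?_⟩, ⟨hb2a.symm, h23, ?_⟩, ⟨?_, ?_⟩, hb3a.symm⟩
    · exact fun h => hp1 (huniq hab hpa hpb a₁ ha₁ (h ▸ hb₂)).symm
    · exact fun h => hp1 (huniq had hpa hpd a₁ ha₁ (h ▸ hb₃)).symm
    · exact fun h => hb1p (huniq hab hpa hpb b₁ hb₁ (h ▸ ha₂))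
    · exact fun h => hb1p (huniq hab hpa hpb b₁ hb₁ (h ▸ hb₂))
    · exact fun h => hb1p (huniq had hpa hpd b₁ hb₁ (h ▸ ha₃))
    · exact fun h => hb1p (huniq had hpa hpd b₁ hb₁ (h ▸ hb₃))
    · exact fun h => hp2 (huniq hbd hpb hpd a₂ ha₂ (h ▸ hb₃)).symm
    · exact fun h => hb2p (huniq hbd hpb hpd b₂ hb₂ (h ▸ ha₃))
    · exact fun h => hb2p (huniq hbd hpb hpd b₂ hb₂ (h ▸ hb₃))
  have hmem : ∀ e ∈ ([p, a₁, b₁, a₂, b₂, a₃, b₃] : List S), ∃ j, e ∈ L j := by
    intro e he
    simp only [List.mem_cons, List.not_mem_nil, or_false] at he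
    rcases he with rfl | rfl | rfl | rfl | rfl | rfl | rfl
    exacts [⟨a, hpa⟩, ⟨a, ha₁⟩, ⟨a, hb₁⟩, ⟨b, ha₂⟩, ⟨b, hb₂⟩, ⟨d, ha₃⟩, ⟨d, hb₃⟩]
  have hcand : ∀ (i : Fin 4) (k : J), (a = k ↔ i = 0) → (b = k ↔ i = 1) → (d = k ↔ i = 2) →
      (c = k ↔ i = 3) →
      ([p, a₁, b₁, a₂, b₂, a₃, b₃] : List S).map (val ν (B k)) ∈ triCands i := by
    intro i k ea eb ed ec
    have e1 := H.sum_val_line k a
    have e2 := H.sum_val_line k b
    have e3 := H.sum_val_line k d
    have e4 := H.sum_val_line k c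
    rw [hLa, sum_triple _ hp1 hb1p hb1a, if_congr ea rfl rfl] at e1
    rw [hLb, sum_triple _ hp2 hb2p hb2a, if_congr eb rfl rfl] at e2
    rw [hLd, sum_triple _ hp3 hb3p hb3a, if_congr ed rfl rfl] at e3
    rw [hLc, sum_triple _ h12 h13.symm h23.symm, if_congr ec rfl rfl] at e4
    have hb := H.sum_abs_le hnd hmem k
    simp only [List.map_cons, List.map_nil, List.sum_cons, List.sum_nil, add_zero] at hb ⊢
    have f1 : val ν (B k) b₁ = (if i = 0 then 1 else 0) - val ν (B k) p - val ν (B k) a₁ := by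
      linear_combination e1
    have f2 : val ν (B k) b₂ = (if i = 1 then 1 else 0) - val ν (B k) p - val ν (B k) a₂ := by
      linear_combination e2
    have f3 : val ν (B k) b₃ = (if i = 2 then 1 else 0) - val ν (B k) p - val ν (B k) a₃ := by
      linear_combination e3
    rw [f1, f2, f3] at hb ⊢
    exact tri_cand i _ (val_mem _ _) _ (val_mem _ _) _ (val_mem _ _) _ (val_mem _ _) e4
      (f1 ▸ val_mem _ _) (f2 ▸ val_mem _ _) (f3 ▸ val_mem _ _) (by linarith)
  refine tri_none _ (hcand 0 a (by simp) (by simp [hab.symm]) (by simp [had.symm]) (by simp [hac.symm]))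
    _ (hcand 1 b (by simp [hab]) (by simp) (by simp [hbd.symm]) (by simp [hbc.symm]))
    _ (hcand 2 d (by simp [had]) (by simp [hbd]) (by simp) (by simp [(Ne.symm hdc)]))
    _ (hcand 3 c (by simp [hac]) (by simp [hbc]) (by simp [hdc]) (by simp))
    ⟨H.ok hnd hmem hab, H.ok hnd hmem had, H.ok hnd hmem hac, H.ok hnd hmem hbd,
      H.ok hnd hmem hbc, H.ok hnd hmem hdc⟩

theorem TwoRows.sunflower [Fintype J] (H : TwoRows ν L B) (hJ : 4 ≤ Fintype.card J) :
    ∃ x, ∀ j, x ∈ L j := by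
  classical
  obtain ⟨a, b, hab⟩ := Fintype.exists_pair_of_one_lt_card (α := J) (by omega)
  obtain ⟨p, hpa, hpb⟩ := (H.colL a b hab).exists_mem
  refine ⟨p, fun c => ?_⟩
  by_contra hpc
  have hca : c ≠ a := fun h => hpc (h ▸ hpa)
  have hcb : c ≠ b := fun h => hpc (h ▸ hpb)
  obtain ⟨d, -, hd⟩ := Finset.exists_mem_notMem_of_card_lt_card
    (s := ({a, b, c} : Finset J)) (t := Finset.univ)
    (lt_of_le_of_lt Finset.card_le_three (by rw [Finset.card_univ]; omega))
  simp only [Finset.mem_insert, Finset.mem_singleton, not_or] at hd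
  obtain ⟨hda, hdb, hdc⟩ := hd
  by_cases hpd : p ∈ L d
  · exact no_tri H hab (Ne.symm hda) (Ne.symm hdb) hca.symm hcb.symm hdc hpa hpb hpd hpc
  obtain ⟨q, hqa, hqc⟩ := (H.colL a c hca.symm).exists_mem
  obtain ⟨r, hrb, hrc⟩ := (H.colL b c hcb.symm).exists_mem
  have hqb : q ∉ L b := fun h => hpc ((H.colL a b hab).unique hqa h hpa hpb ▸ hqc)
  have hra : r ∉ L a := fun h => hpc ((H.colL a b hab).unique h hrb hpa hpb ▸ hrc)
  by_cases hqd : q ∈ L d
  · exact no_tri H hca.symm (Ne.symm hda) (Ne.symm hdc) hab hcb hdb hqa hqc hqd hqb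
  by_cases hrd : r ∈ L d
  · exact no_tri H hcb.symm (Ne.symm hdb) (Ne.symm hdc) hab.symm hca hda hrb hrc hrd hra
  apply no_quad H a {a, b, c, d} (by simp)
  intro e
  have key : ∀ i j k l : J, i ≠ j → i ≠ k → i ≠ l → j ≠ k → j ≠ l → k ≠ l →
      (∀ z, z ∈ L i → z ∈ L j → z ∈ L k → False) → (∀ z, z ∈ L i → z ∈ L j → z ∈ L l → False) →
      (∀ z, z ∈ L i → z ∈ L k → z ∈ L l → False) → e ∈ L i →
      ((e ∈ L j ∧ e ∉ L k ∧ e ∉ L l) ∨ (e ∉ L j ∧ e ∈ L k ∧ e ∉ L l) ∨
        (e ∉ L j ∧ e ∉ L k ∧ e ∈ L l)) := by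
    intro i j k l hij hik hil _ _ _ n1 n2 n3 hei
    obtain ⟨u, hu, hu'⟩ := (H.colL i j hij).exists_mem
    obtain ⟨v, hv, hv'⟩ := (H.colL i k hik).exists_mem
    obtain ⟨w, hw, hw'⟩ := (H.colL i l hil).exists_mem
    have huv : u ≠ v := fun h => n1 u hu hu' (h ▸ hv')
    have huw : u ≠ w := fun h => n2 u hu hu' (h ▸ hw')
    have hvw : v ≠ w := fun h => n3 v hv hv' (h ▸ hw')
    have hL : L i = {u, v, w} := by
      refine (Finset.eq_of_subset_of_card_le ?_ ?_).symm
      · simp [Finset.insert_subset_iff, hu, hv, hw]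
      · rw [H.cardL, Finset.card_eq_three.mpr ⟨u, v, w, huv, huw, hvw, rfl⟩]
    rw [hL] at hei
    simp only [Finset.mem_insert, Finset.mem_singleton] at hei
    rcases hei with rfl | rfl | rfl
    · exact Or.inl ⟨hu', fun h => n1 e hu hu' h, fun h => n2 e hu hu' h⟩
    · exact Or.inr (Or.inl ⟨fun h => n1 e hv h hv', hv', fun h => n3 e hv hv' h⟩)
    · exact Or.inr (Or.inr ⟨fun h => n2 e hw h hw', fun h => n3 e hw h hw', hw'⟩)
  have nabc : ∀ z, z ∈ L a → z ∈ L b → z ∈ L c → False := fun z h1 h2 h3 =>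
    hpc ((H.colL a b hab).unique h1 h2 hpa hpb ▸ h3)
  have nabd : ∀ z, z ∈ L a → z ∈ L b → z ∈ L d → False := fun z h1 h2 h3 =>
    hpd ((H.colL a b hab).unique h1 h2 hpa hpb ▸ h3)
  have nacd : ∀ z, z ∈ L a → z ∈ L c → z ∈ L d → False := fun z h1 h2 h3 =>
    hqd ((H.colL a c hca.symm).unique h1 h2 hqa hqc ▸ h3)
  have nbcd : ∀ z, z ∈ L b → z ∈ L c → z ∈ L d → False := fun z h1 h2 h3 =>
    hrd ((H.colL b c hcb.symm).unique h1 h2 hrb hrc ▸ h3)
  simp only [Finset.filter_insert, Finset.filter_singleton]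
  by_cases h1 : e ∈ L a
  · rcases key a b c d hab hca.symm (Ne.symm hda) hcb.symm (Ne.symm hdb) (Ne.symm hdc) nabc nabd nacd h1 with
      ⟨h2, h3, h4⟩ | ⟨h2, h3, h4⟩ | ⟨h2, h3, h4⟩ <;>
      simp [h1, h2, h3, h4, hab, hca.symm, (Ne.symm hda)]
  by_cases h2 : e ∈ L b
  · rcases key b a c d hab.symm hcb.symm (Ne.symm hdb) hca.symm (Ne.symm hda) (Ne.symm hdc)
      (fun z x y w => nabc z y x w) (fun z x y w => nabd z y x w) nbcd h2 with
      ⟨h1', -, -⟩ | ⟨-, h3, h4⟩ | ⟨-, h3, h4⟩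
    · exact absurd h1' h1
    · simp [h1, h2, h3, h4, hcb.symm]
    · simp [h1, h2, h3, h4, (Ne.symm hdb)]
  by_cases h3 : e ∈ L c
  · rcases key c a b d hca hcb (Ne.symm hdc) hab (Ne.symm hda) (Ne.symm hdb)
      (fun z x y w => nabc z y w x) (fun z x y w => nacd z y x w)
      (fun z x y w => nbcd z y x w) h3 with ⟨h1', -, -⟩ | ⟨-, h2', -⟩ | ⟨-, -, h4⟩
    · exact absurd h1' h1
    · exact absurd h2' h2
    · simp [h1, h2, h3, h4, (Ne.symm hdc)]
  by_cases h4 : e ∈ L d
  · rcases key d a b c hda hdb hdc hab hca.symm hcb.symm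
      (fun z x y w => nabd z y w x) (fun z x y w => nacd z y w x)
      (fun z x y w => nbcd z y w x) h4 with ⟨h1', -, -⟩ | ⟨-, h2', -⟩ | ⟨-, -, h3'⟩
    · exact absurd h1' h1
    · exact absurd h2' h2
    · exact absurd h3' h3
  simp [h1, h2, h3, h4]

theorem TwoRows.structure' [Fintype J] (H : TwoRows ν L B) (hJ : 4 ≤ Fintype.card J) {x : S}
    (hx : ∀ j, x ∈ L j) : (∀ k, x ∉ B k) ∧
      ∀ k j, j ≠ k → ∀ e ∈ B k, e ∉ L j ∧ ν e ∉ L j := by
  classical
  have hleaf : ∀ {j j' : J}, j ≠ j' → ∀ e ∈ L j, e ∈ L j' → e = x := fun h e he he' =>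
    (H.colL _ _ h).unique he he' (hx _) (hx _)
  have : Nonempty S := ⟨x⟩
  have hcent : ∀ k, x ∉ B k ∧ ν x ∉ B k := by
    intro k
    by_contra hcon
    have hex : ∀ j ∈ (Finset.univ : Finset J).erase k, ∃ y ∈ L j, y ≠ x ∧
        (y ∈ B k ∨ ν y ∈ B k) := by
      intro j hj
      have hjk : k ≠ j := (Finset.ne_of_mem_erase hj).symm
      by_cases hxB : x ∈ B k
      · obtain ⟨q, hq, hq'⟩ := (H.non k j hjk).exists_opp hxB (hx j)
        exact ⟨ν q, hq', fun h => H.oppB k k x hxB (by rw [← h, H.invol q]; exact hq),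
          Or.inr (by rw [H.invol q]; exact hq)⟩
      · have hνx : ν x ∈ B k := by tauto
        obtain ⟨y, hy, hy'⟩ := (H.non k j hjk).exists_same hνx (by rw [H.invol x]; exact hx j)
        exact ⟨y, hy', fun h => hxB (h ▸ hy), Or.inl hy⟩
    choose! y hy hyx hyB using hex
    let f : J → S := fun j => if y j ∈ B k then y j else ν (y j)
    have hfB : ∀ j ∈ (Finset.univ : Finset J).erase k,
        f j ∈ ((B k).erase x).erase (ν x) := by
      intro j hj
      simp only [Finset.mem_erase]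
      show f j ≠ ν x ∧ f j ≠ x ∧ f j ∈ B k
      simp only [f]
      split_ifs with h
      · exact ⟨fun e => H.oppL j j x (hx j) (e ▸ hy j hj), hyx j hj, h⟩
      · refine ⟨fun e => hyx j hj (H.invol.injective e),
          fun e => H.oppL j j (y j) (hy j hj) (e.symm ▸ hx j), ?_⟩
        exact (hyB j hj).resolve_left h
    have hinj : Set.InjOn f ((Finset.univ : Finset J).erase k : Finset J) := by
      intro j hj j' hj' h
      by_contra hne
      simp only [f] at h
      split_ifs at h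
      · exact hyx j hj (hleaf hne _ (hy j hj) (h ▸ hy j' hj'))
      · exact H.oppL j' j (y j') (hy j' hj') (h ▸ hy j hj)
      · exact H.oppL j j' (y j) (hy j hj) (h.symm ▸ hy j' hj')
      · exact hyx j hj (hleaf hne _ (hy j hj) (H.invol.injective h ▸ hy j' hj'))
    have h1 := Finset.card_le_card_of_injOn f hfB hinj
    rw [Finset.card_erase_of_mem (Finset.mem_univ k), Finset.card_univ] at h1
    have h2 : (((B k).erase x).erase (ν x)).card ≤ 2 := by
      by_cases hxB : x ∈ B k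
      · calc _ ≤ ((B k).erase x).card := Finset.card_erase_le
          _ = 2 := by rw [Finset.card_erase_of_mem hxB, H.cardB]
      · have hνx : ν x ∈ B k := by tauto
        rw [Finset.erase_eq_of_notMem hxB, Finset.card_erase_of_mem hνx, H.cardB]
    omega
  refine ⟨fun k => (hcent k).1, ?_⟩
  intro k j hjk
  have hnone : ∀ e ∈ B k, e ∉ L j := by
    intro e he hej
    obtain ⟨q, hq, hq'⟩ := (H.non k j hjk.symm).exists_opp he hej
    obtain ⟨s, hsB, hsL⟩ := (H.col k).exists_mem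
    have hex : e ≠ x := fun h => (hcent k).1 (h ▸ he)
    have hqx : ν q ≠ x := fun h => (hcent k).2 (by rw [← h, H.invol q]; exact hq)
    have heq : e ≠ ν q := fun h => H.oppB k k q hq (h ▸ he)
    have hsx : s ≠ x := fun h => (hcent k).1 (h ▸ hsB)
    obtain ⟨s', hs'x, hs's, hLk⟩ := H.exists_third (hx k) hsL hsx.symm
    obtain ⟨w, hw1, hw2, hLj⟩ := H.exists_third (hx j) hej hex.symm
    have hwq : w = ν q := by
      rw [hLj] at hq'
      simp only [Finset.mem_insert, Finset.mem_singleton] at hq'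
      rcases hq' with h | h | h
      · exact absurd h hqx
      · exact absurd h heq.symm
      · exact h.symm
    have hse : s ≠ e := fun h => hsx (hleaf hjk.symm s hsL (h ▸ hej))
    have hsq : s ≠ q := fun h => H.oppL k j s hsL (h ▸ hq')
    have hBk : B k = {s, e, q} := by
      refine (Finset.eq_of_subset_of_card_le ?_ ?_).symm
      · simp [Finset.insert_subset_iff, hsB, he, hq]
      · rw [H.cardB, Finset.card_eq_three.mpr ⟨s, e, q, hse, hsq,
          fun h => H.oppL j j e hej (h ▸ hq'), rfl⟩]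
    have hi : ∀ i, i ≠ j → i ≠ k → s ∈ B i ∧ ν s' ∈ B i := by
      intro i hij hik
      obtain ⟨w', hwk, hwi⟩ := (H.colB k i hik.symm).exists_mem
      rw [hBk] at hwk
      simp only [Finset.mem_insert, Finset.mem_singleton] at hwk
      rcases hwk with rfl | rfl | rfl
      · obtain ⟨q', hq1, hq2⟩ := (H.non i k hik).exists_opp hwi hsL
        rw [hLk] at hq2
        simp only [Finset.mem_insert, Finset.mem_singleton] at hq2
        rcases hq2 with h | h | h
        · exact absurd hq1 (by rw [← H.invol q', h]; exact (hcent i).2)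
        · exact absurd hwi (h ▸ H.oppB i i q' hq1)
        · exact ⟨hwi, by rw [← h, H.invol q']; exact hq1⟩
      · exfalso
        obtain ⟨q', hq1, hq2⟩ := (H.non i j hij).exists_opp hwi hej
        rw [hLj, hwq] at hq2
        simp only [Finset.mem_insert, Finset.mem_singleton] at hq2
        rcases hq2 with h | h | h
        · exact absurd hq1 (by rw [← H.invol q', h]; exact (hcent i).2)
        · exact absurd hwi (h ▸ H.oppB i i q' hq1)
        · rw [H.invol.injective h] at hq1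
          have h' : w' = q := (H.colB i k hik).unique hwi he hq1 hq
          exact H.oppL j j w' hej (by rw [h']; exact hq')
      · exfalso
        obtain ⟨e', he1, he2⟩ := (H.non i j hij).exists_same hwi hq'
        rw [hLj, hwq] at he2
        simp only [Finset.mem_insert, Finset.mem_singleton] at he2
        rcases he2 with h | h | h
        · exact (hcent i).1 (h ▸ he1)
        · subst h
          have h' : e' = w' := (H.colB i k hik).unique he1 he hwi hq
          exact H.oppL j j e' hej (by rw [h']; exact hq')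
        · exact H.oppB i i w' hwi (h ▸ he1)
    obtain ⟨i, -, hi'⟩ := Finset.exists_mem_notMem_of_card_lt_card
      (s := ({j, k} : Finset J)) (t := Finset.univ)
      (lt_of_le_of_lt Finset.card_le_two (by rw [Finset.card_univ]; omega))
    simp only [Finset.mem_insert, Finset.mem_singleton, not_or] at hi'
    obtain ⟨i₂, -, hi₂⟩ := Finset.exists_mem_notMem_of_card_lt_card
      (s := ({j, k, i} : Finset J)) (t := Finset.univ)
      (lt_of_le_of_lt Finset.card_le_three (by rw [Finset.card_univ]; omega))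
    simp only [Finset.mem_insert, Finset.mem_singleton, not_or] at hi₂
    obtain ⟨a1, a2⟩ := hi i hi'.1 hi'.2
    obtain ⟨b1, b2⟩ := hi i₂ hi₂.1 hi₂.2.1
    have := (H.colB i i₂ (Ne.symm hi₂.2.2)).unique a1 b1 a2 b2
    exact H.oppL k k s' (by rw [hLk]; simp) (this ▸ hsL)
  intro e he
  refine ⟨hnone e he, fun h => ?_⟩
  obtain ⟨e', he1, he2⟩ := (H.non k j hjk.symm).exists_same he h
  exact hnone e' he1 he2

/-- The grid. -/
structure Grid {I J : Type*} (ν : S → S) (T : I → J → Finset S) : Prop where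
  invol : Function.Involutive ν
  card3 : ∀ i j, (T i j).card = 3
  self : ∀ i j, ∀ e ∈ T i j, ν e ∉ T i j
  row : ∀ i j k, j ≠ k → Col ν (T i j) (T i k)
  col : ∀ i l j, i ≠ l → Col ν (T i j) (T l j)
  non : ∀ i l j k, i ≠ l → j ≠ k → NonCol ν (T i j) (T l k)

variable {I : Type*} {T : I → J → Finset S}

theorem Grid.transpose (H : Grid ν T) : Grid ν (fun j i => T i j) :=
  ⟨H.invol, fun j i => H.card3 i j, fun j i => H.self i j, fun j i l h => H.col i l j h,
    fun j k i h => H.row i j k h, fun j k i l h h' => H.non i l j k h' h⟩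

theorem Grid.twoRows (H : Grid ν T) {i l : I} (h : i ≠ l) : TwoRows ν (T i) (T l) := by
  refine ⟨H.invol, H.card3 i, H.card3 l, ?_, ?_, fun j k => H.row i j k, fun j k => H.row l j k,
    fun j => H.col l i j h.symm, fun j k hjk => H.non l i j k h.symm hjk⟩
  all_goals
    intro j k e he
    by_cases hjk : j = k
    · subst hjk; exact H.self _ j e he
    · exact (H.row _ j k hjk).no_opp he

/-- The centres and leaves of a grid. -/
theorem Grid.decompose [Fintype I] [Fintype J] (H : Grid ν T) (hI : 2 ≤ Fintype.card I)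
    (hJ : 4 ≤ Fintype.card J) (hI' : 4 ≤ Fintype.card I ∨ Fintype.card I = 2) :
    ∃ f : I ⊕ J ⊕ (I × J) → S, Function.Injective f ∧ (∀ a b, f a ≠ ν (f b)) ∧
      ∀ i j, T i j = {f (Sum.inl i), f (Sum.inr (Sum.inl j)), f (Sum.inr (Sum.inr (i, j)))} := by
  classical
  have hother : ∀ i : I, ∃ l, l ≠ i := fun i => Fintype.exists_ne_of_one_lt_card (by omega) i
  have hotherJ : ∀ j : J, ∃ k, k ≠ j := fun j => Fintype.exists_ne_of_one_lt_card (by omega) j
  have hrow : ∀ i, ∃ x, ∀ j, x ∈ T i j := fun i => by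
    obtain ⟨l, hl⟩ := hother i
    exact (H.twoRows hl.symm).sunflower hJ
  choose x hx using hrow
  have hxout : ∀ i l j, l ≠ i → x i ∉ T l j := fun i l j hl =>
    ((H.twoRows hl.symm).structure' hJ (hx i)).1 j
  have hdisj : ∀ i l j k, i ≠ l → j ≠ k → ∀ e ∈ T i j, e ∉ T l k ∧ ν e ∉ T l k :=
    fun i l j k hil hjk e he =>
      ((H.twoRows hil.symm).structure' hJ (hx l)).2 j k hjk.symm e he
  have hcol : ∀ j, ∃ y, ∀ i, y ∈ T i j := by
    intro j
    rcases hI' with h4 | h2
    · obtain ⟨k, hk⟩ := hotherJ j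
      exact (H.transpose.twoRows hk.symm).sunflower h4
    · obtain ⟨a, b, hab, hu⟩ := Finset.card_eq_two.mp (Finset.card_univ.trans h2)
      obtain ⟨y, hy, hy'⟩ := (H.col a b j hab).exists_mem
      refine ⟨y, fun i => ?_⟩
      have : i ∈ ({a, b} : Finset I) := hu ▸ Finset.mem_univ i
      simp only [Finset.mem_insert, Finset.mem_singleton] at this
      rcases this with rfl | rfl <;> assumption
  choose y hy using hcol
  have hxy : ∀ i j, x i ≠ y j := fun i j h => by
    obtain ⟨l, hl⟩ := hother i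
    exact hxout i l j hl (h ▸ hy j l)
  have hthird : ∀ i j, ∃ z, z ≠ x i ∧ z ≠ y j ∧ T i j = {x i, y j, z} := fun i j => by
    obtain ⟨l, hl⟩ := hother i
    exact (H.twoRows hl.symm).exists_third (hx i j) (hy j i) (hxy i j)
  choose z hzx hzy hT using hthird
  let f : I ⊕ J ⊕ (I × J) → S := Sum.elim x (Sum.elim y fun q => z q.1 q.2)
  have hzmem : ∀ i j, z i j ∈ T i j := fun i j => by rw [hT i j]; simp
  have hzonly : ∀ i j l k, (i, j) ≠ (l, k) → z i j ∉ T l k := by
    intro i j l k hne h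
    by_cases h1 : i = l
    · subst h1
      have hjk : j ≠ k := fun e => hne (by rw [e])
      exact hzx i j ((H.row i j k hjk).unique (hzmem i j) h (hx i j) (hx i k))
    · by_cases h2 : j = k
      · subst h2
        exact hzy i j ((H.col i l j h1).unique (hzmem i j) h (hy j i) (hy j l))
      · exact (hdisj i l j k h1 h2 _ (hzmem i j)).1 h
  have hyonly : ∀ j i k, k ≠ j → y j ∉ T i k := by
    intro j i k hk h
    exact hxy i j ((H.row i j k hk.symm).unique (hy j i) h (hx i j) (hx i k)).symm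
  obtain ⟨i0⟩ : Nonempty I := Fintype.card_pos_iff.mp (by omega)
  obtain ⟨j0⟩ : Nonempty J := Fintype.card_pos_iff.mp (by omega)
  have hmem : ∀ a, ∃ i j, f a ∈ T i j := by
    rintro (i | j | ⟨i, j⟩)
    exacts [⟨i, j0, hx i j0⟩, ⟨i0, j, hy j i0⟩, ⟨i, j, hzmem i j⟩]
  refine ⟨f, ?_, ?_, hT⟩
  · rintro (i | j | ⟨i, j⟩) (l | k | ⟨l, k⟩) h <;> simp only [f, Sum.elim_inl, Sum.elim_inr] at h
    · by_contra hne
      exact hxout i l j0 (fun e => hne (by rw [e])) (h ▸ hx l j0)
    · exact absurd h (hxy i k)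
    · exfalso
      obtain ⟨j', hj'⟩ := hotherJ k
      exact hzonly l k i j' (fun e => hj' (Prod.ext_iff.mp e).2.symm) (h ▸ hx i j')
    · exact absurd h.symm (hxy l j)
    · by_contra hne
      exact hyonly j i0 k (fun e => hne (by rw [e])) (h ▸ hy k i0)
    · exfalso
      obtain ⟨i', hi'⟩ := hother l
      exact hzonly l k i' j (fun e => hi' (Prod.ext_iff.mp e).1.symm) (h ▸ hy j i')
    · exfalso
      obtain ⟨j', hj'⟩ := hotherJ j
      exact hzonly i j l j' (fun e => hj' (Prod.ext_iff.mp e).2.symm) (h.symm ▸ hx l j')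
    · exfalso
      obtain ⟨i', hi'⟩ := hother i
      exact hzonly i j i' k (fun e => hi' (Prod.ext_iff.mp e).1.symm) (h.symm ▸ hy k i')
    · by_contra hne
      exact hzonly i j l k (fun e => hne (by rw [e])) (h ▸ hzmem l k)
  · intro a b h
    obtain ⟨i, j, ha⟩ := hmem a
    obtain ⟨l, k, hb⟩ := hmem b
    rw [h] at ha
    by_cases h1 : i = l
    · subst h1
      by_cases h2 : j = k
      · subst h2; exact H.self i j _ hb ha
      · exact (H.row i k j (Ne.symm h2)).no_opp hb ha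
    · by_cases h2 : j = k
      · subst h2; exact (H.col l i j (Ne.symm h1)).no_opp hb ha
      · exact (hdisj l i k j (Ne.symm h1) (Ne.symm h2) _ hb).2 ha

end CfsgLib.TriLines
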