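import Cfsg.Agent.S1505
import Cfsg.Agent.CharBasics.CyclicTIGalois
import Cfsg.Agent.CharBasics.TriLines

/-!
Existence of cyclic TI families.
-/

set_option autoImplicit false

namespace CfsgLib.CyclicTI

open CfsgLib.CharBasics
open scoped ComplexConjugate

universe u

variable {G : Type u} [Group G] [Fintype G]

/-- Irreducible characters up to sign. -/
abbrev Signed (G : Type u) [Group G] [Fintype G] : Type u := {f : G → ℂ // IrrOrNeg f}

/-- Change of sign. -/
def flipSign (e : Signed G) : Signed G :=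
  ⟨-e.1, e.2.elim (fun h => Or.inr ((neg_neg e.1).symm ▸ h)) Or.inl⟩

theorem flipSign_invol : Function.Involutive (flipSign (G := G)) := fun e => Subtype.ext (neg_neg _)

theorem signed_one_ne_zero (e : Signed G) : e.1 1 ≠ 0 := by
  rcases e.2 with h | h
  · exact apply_one_ne_zero h
  · intro h0
    exact apply_one_ne_zero h (by rw [Pi.neg_apply, h0, neg_zero])

theorem flipSign_ne (e : Signed G) : flipSign e ≠ e := fun h => by
  have := congrFun (congrArg Subtype.val h) 1
  exact signed_one_ne_zero e (by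
    change -e.1 1 = e.1 1 at this
    linear_combination (-1/2 : ℂ) * this)

open Classical in
theorem signed_inner (e e' : Signed G) : Cfsg.classInner e.1 e'.1 =
    (if e = e' then 1 else 0) - (if flipSign e = e' then 1 else 0) := by
  by_cases h : e = e'
  · subst h
    rw [if_pos rfl, if_neg (flipSign_ne e), irrOrNeg_inner_self e.2, sub_zero]
  · rw [if_neg h]
    by_cases h' : flipSign e = e'
    · subst h'
      rw [if_pos rfl, show (flipSign e).1 = -e.1 from rfl, classInner_neg_right,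
        irrOrNeg_inner_self e.2, zero_sub]
    · rw [if_neg h', sub_zero]
      by_contra hne
      rcases irrOrNeg_eq_or_neg e.2 e'.2 hne with he | he
      · exact h (Subtype.ext he)
      · exact h' (Subtype.ext (by show -e.1 = e'.1; rw [he, neg_neg]))

open Classical in
theorem inner_sums (A B : Finset (Signed G)) :
    Cfsg.classInner (∑ e ∈ A, e.1) (∑ e ∈ B, e.1) =
      ((A ∩ B).card : ℂ) - ((TriLines.opp flipSign A B).card : ℂ) := by
  rw [classInner_sum_left, Finset.sum_congr rfl fun e _ => classInner_sum_right _ _ _]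
  simp only [signed_inner, Finset.sum_sub_distrib, Finset.sum_ite_eq, Finset.sum_boole,
    Finset.filter_mem_eq_inter]
  rfl

open Classical in
theorem expand_three {f : G → ℂ} (hf : f ∈ BrauerInd.genChar G)
    (h3 : Cfsg.classInner f f = 3) :
    ∃ A : Finset (Signed G), A.card = 3 ∧ (∀ e ∈ A, flipSign e ∉ A) ∧ f = ∑ e ∈ A, e.1 := by
  haveI := Fintype.ofFinite (Cfsg.IrrCharacter G)
  choose z hz using fun ψ => BrauerInd.genChar_inner_int hf ψ
  have hex : f = ∑ ψ : Cfsg.IrrCharacter G, (z ψ : ℂ) • (ψ : G → ℂ) := by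
    conv_lhs => rw [classFun_expand (BrauerInd.genChar_isClassFunction hf)]
    exact Finset.sum_congr rfl fun ψ _ => by rw [hz ψ]
  have hsq : ∑ ψ, z ψ * z ψ = 3 := by
    have h2 : Cfsg.classInner f f = ∑ ψ, ((z ψ * z ψ : ℤ) : ℂ) := by
      conv_lhs => arg 1; rw [hex]
      rw [classInner_sum_left]
      refine Finset.sum_congr rfl fun ψ _ => ?_
      rw [classInner_smul_left, classInner_comm, hz ψ]
      simp
    rw [h3] at h2
    exact_mod_cast h2.symm
  have hsmall : ∀ ψ, z ψ = -1 ∨ z ψ = 0 ∨ z ψ = 1 := by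
    intro ψ
    have h1 : z ψ * z ψ ≤ 3 := hsq ▸
      Finset.single_le_sum (f := fun ψ => z ψ * z ψ) (fun i _ => mul_self_nonneg _) (Finset.mem_univ ψ)
    have h2 : -1 ≤ z ψ := by nlinarith
    have h3 : z ψ ≤ 1 := by nlinarith
    omega
  let g : Cfsg.IrrCharacter G → Signed G := fun ψ =>
    if z ψ = 1 then ⟨ψ.1, Or.inl ψ.2⟩ else ⟨-ψ.1, Or.inr (by rw [neg_neg]; exact ψ.2)⟩
  have hval : ∀ ψ, (g ψ).1 = ψ.1 ∨ (g ψ).1 = -ψ.1 := fun ψ => by
    simp only [g]; split
    · exact Or.inl rfl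
    · exact Or.inr rfl
  have hnn : ∀ ψ ψ' : Cfsg.IrrCharacter G, ψ.1 ≠ -ψ'.1 := fun ψ ψ' h => by
    have := congrFun h 1
    rw [Pi.neg_apply, apply_one (isCharacter_of_irr ψ.2), apply_one (isCharacter_of_irr ψ'.2)] at this
    have h1 := congrArg Complex.re this
    simp only [Complex.natCast_re, Complex.neg_re] at h1
    have h2 : (0 : ℝ) < Cfsg.charDegree ψ.1 := Nat.cast_pos.mpr (charDegree_pos ψ.2)
    have h3 : (0 : ℝ) ≤ Cfsg.charDegree ψ'.1 := Nat.cast_nonneg _
    linarith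
  have hkey : ∀ ψ ψ', (g ψ).1 = (g ψ').1 ∨ (g ψ).1 = -(g ψ').1 → ψ = ψ' := by
    intro ψ ψ' h
    rcases hval ψ with e | e <;> rcases hval ψ' with e' | e' <;> rw [e, e'] at h <;>
      rcases h with h | h
    · exact Subtype.ext h
    · exact absurd h (hnn _ _)
    · exact absurd h (hnn _ _)
    · exact Subtype.ext (h.trans (neg_neg _))
    · exact absurd h.symm (hnn _ _)
    · exact Subtype.ext (neg_inj.mp h)
    · exact Subtype.ext (neg_inj.mp h)
    · exact absurd (h.trans (neg_neg _)).symm (hnn _ _)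
  let T := Finset.univ.filter fun ψ => z ψ ≠ 0
  have hinj : Set.InjOn g (T : Set (Cfsg.IrrCharacter G)) := fun a _ b _ h =>
    hkey a b (Or.inl (congrArg Subtype.val h))
  refine ⟨T.image g, ?_, ?_, ?_⟩
  · rw [Finset.card_image_of_injOn hinj]
    have h4 : ∑ ψ, z ψ * z ψ = (T.card : ℤ) := by
      rw [← Finset.sum_boole]
      refine Finset.sum_congr rfl fun ψ _ => ?_
      rcases hsmall ψ with h | h | h <;> simp [h]
    rw [hsq] at h4
    exact_mod_cast h4.symm
  · intro e he he'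
    obtain ⟨a, -, rfl⟩ := Finset.mem_image.mp he
    obtain ⟨b, -, hb⟩ := Finset.mem_image.mp he'
    have hab := hkey b a (Or.inr (congrArg Subtype.val hb))
    subst hab
    exact flipSign_ne _ hb.symm
  · rw [Finset.sum_image hinj, Finset.sum_filter]
    conv_lhs => rw [hex]
    refine Finset.sum_congr rfl fun ψ _ => ?_
    rcases hsmall ψ with h | h | h <;> simp [g, h]

open Classical in
theorem col_of_inner {A B : Finset (Signed G)} (hA : A.card = 3) (hB : B.card = 3)
    (hAo : ∀ e ∈ A, flipSign e ∉ A) (hBo : ∀ e ∈ B, flipSign e ∉ B) (h1 : Cfsg.classInner (∑ e ∈ A, e.1) (∑ e ∈ B, e.1) = 1)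
    (hdeg : (∑ e ∈ A, e.1) 1 = (∑ e ∈ B, e.1) 1) : TriLines.Col flipSign A B := by
  set P := A ∩ B with hP
  set Q := TriLines.opp flipSign A B with hQ
  rw [inner_sums, sub_eq_iff_eq_add] at h1
  have h1' : P.card = 1 + Q.card := by exact_mod_cast h1
  have hdisj : Disjoint P Q := Finset.disjoint_left.mpr fun e he he' =>
    hBo e (Finset.mem_inter.mp he).2 (Finset.mem_filter.mp he').2
  have hsub : P ∪ Q ⊆ A := Finset.union_subset Finset.inter_subset_left (Finset.filter_subset _ _)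
  have hle := Finset.card_le_card hsub
  rw [Finset.card_union_of_disjoint hdisj, hA] at hle
  by_contra hcon
  have hQ1 : Q.card = 1 := by
    by_contra hne
    exact hcon ⟨by rw [← hP]; omega, by rw [← hQ]; omega⟩
  obtain ⟨c, hc⟩ := Finset.card_eq_one.mp hQ1
  have hcm : c ∈ A ∧ flipSign c ∈ B := Finset.mem_filter.mp (hc ▸ Finset.mem_singleton_self c)
  have hA' : A = insert c P := by
    refine (Finset.eq_of_subset_of_card_le ?_ ?_).symm
    · exact Finset.insert_subset hcm.1 Finset.inter_subset_left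
    · rw [Finset.card_insert_of_notMem (fun h => hBo c (Finset.mem_inter.mp h).2 hcm.2)]
      have := congrArg Finset.card hP
      omega
  have hcP : flipSign c ∉ P := fun h => by
    have h2 : flipSign c ∈ A := (Finset.mem_inter.mp h).1
    rw [hA', Finset.mem_insert] at h2
    exact h2.elim (flipSign_ne c) (fun _ => hAo c hcm.1 (Finset.mem_inter.mp h).1)
  have hB' : B = insert (flipSign c) P := by
    refine (Finset.eq_of_subset_of_card_le ?_ ?_).symm
    · exact Finset.insert_subset hcm.2 Finset.inter_subset_right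
    · rw [Finset.card_insert_of_notMem hcP]; omega
  rw [hA', hB', Finset.sum_insert (fun h => hBo c (Finset.mem_inter.mp h).2 hcm.2),
    Finset.sum_insert hcP, Pi.add_apply, Pi.add_apply] at hdeg
  have h5 : c.1 1 = -c.1 1 := add_right_cancel hdeg
  exact signed_one_ne_zero c (by linear_combination (1/2 : ℂ) * h5)

open Classical in
theorem noncol_of_inner {A B : Finset (Signed G)} (hA : A.card = 3)
    (hBo : ∀ e ∈ B, flipSign e ∉ B) (h0 : Cfsg.classInner (∑ e ∈ A, e.1) (∑ e ∈ B, e.1) = 0) :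
    TriLines.NonCol flipSign A B := by
  rw [inner_sums, sub_eq_zero] at h0
  have h1 : (A ∩ B).card = (TriLines.opp flipSign A B).card := by exact_mod_cast h0
  have hdisj : Disjoint (A ∩ B) (TriLines.opp flipSign A B) :=
    Finset.disjoint_left.mpr fun e he he' =>
      hBo e (Finset.mem_inter.mp he).2 (Finset.mem_filter.mp he').2
  have hle := Finset.card_le_card (Finset.union_subset (Finset.inter_subset_left (s₁ := A) (s₂ := B))
    (Finset.filter_subset (fun e => flipSign e ∈ B) A))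
  rw [show A.filter (fun e => flipSign e ∈ B) = TriLines.opp flipSign A B from rfl,
    Finset.card_union_of_disjoint hdisj, hA] at hle
  exact ⟨h1, by omega⟩

theorem inner_sub (a b c : G → ℂ) :
    Cfsg.classInner (a - b) c = Cfsg.classInner a c - Cfsg.classInner b c := by
  simp [classInner_eq, sub_mul, Finset.sum_sub_distrib, mul_sub]

theorem inner_sub_right (a b c : G → ℂ) :
    Cfsg.classInner a (b - c) = Cfsg.classInner a b - Cfsg.classInner a c := by
  simp [classInner_eq, mul_sub, Finset.sum_sub_distrib]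

variable {W₁ W₂ : Subgroup G}

set_option maxHeartbeats 1600000 in
open Classical in
theorem exists_family (hW : Cfsg.IsSelfNormalizingCyclic W₁ W₂)
    (hodd : Odd (Nat.card ↥(W₁ ⊔ W₂))) :
    ∃ χ : (↥(W₁ ⊔ W₂) →* ℂˣ) → (G → ℂ), Cfsg.IsCyclicTIFamily W₁ W₂ χ := by
  have := hW.2.2.2.2.1
  letI : CommGroup ↥(W₁ ⊔ W₂) := IsCyclic.commGroup
  let A : Subgroup ↥(W₁ ⊔ W₂) := W₁.subgroupOf _
  let B : Subgroup ↥(W₁ ⊔ W₂) := W₂.subgroupOf _
  have hAc : Nat.card A = Nat.card W₁ :=
    Nat.card_congr (Subgroup.subgroupOfEquivOfLe le_sup_left).toEquiv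
  have hBc : Nat.card B = Nat.card W₂ :=
    Nat.card_congr (Subgroup.subgroupOfEquivOfLe le_sup_right).toEquiv
  have hd : A ⊓ B = ⊥ := by
    rw [eq_bot_iff]
    intro x hx
    have : (x : G) ∈ W₁ ⊓ W₂ := hx
    rw [hW.2.2.1, Subgroup.mem_bot] at this
    exact Subgroup.mem_bot.2 (Subtype.ext this)
  have hs : A ⊔ B = ⊤ := by
    show W₁.subgroupOf (W₁ ⊔ W₂) ⊔ W₂.subgroupOf (W₁ ⊔ W₂) = ⊤
    rw [← Subgroup.subgroupOf_sup le_sup_left le_sup_right, Subgroup.subgroupOf_self]
  obtain ⟨eA, heA, hsplit⟩ := exists_split A B hd hs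
  obtain ⟨eB, heB, -⟩ := exists_split B A (inf_comm B A ▸ hd) (sup_comm B A ▸ hs)
  haveI := Fintype.ofFinite (TrivOn A)
  haveI := Fintype.ofFinite (TrivOn B)
  haveI := Fintype.ofFinite ↥(W₁ ⊔ W₂)
  have huniq : ∀ (i i' : TrivOn B) (j j' : TrivOn A),
      i.1 * j.1 = i'.1 * j'.1 → i = i' ∧ j = j' := by
    intro i i' j j' h
    refine ⟨eA.injective (MonoidHom.ext fun a => ?_), eB.injective (MonoidHom.ext fun b => ?_)⟩
    · have := DFunLike.congr_fun h (a : ↥(W₁ ⊔ W₂))
      rw [MonoidHom.mul_apply, MonoidHom.mul_apply, j.2 _ a.2, j'.2 _ a.2, mul_one, mul_one] at this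
      rw [heA, heA, this]
    · have := DFunLike.congr_fun h (b : ↥(W₁ ⊔ W₂))
      rw [MonoidHom.mul_apply, MonoidHom.mul_apply, i.2 _ b.2, i'.2 _ b.2, one_mul, one_mul] at this
      rw [heB, heB, this]
  let u₁ : TrivOn B := ⟨1, fun _ _ => rfl⟩
  let u₂ : TrivOn A := ⟨1, fun _ _ => rfl⟩
  let I := {i : TrivOn B // i ≠ u₁}
  let J := {j : TrivOn A // j ≠ u₂}
  have hI1 : ∀ i : I, i.1.1 ≠ 1 := fun i h => i.2 (Subtype.ext h)
  have hJ1 : ∀ j : J, j.1.1 ≠ 1 := fun j h => j.2 (Subtype.ext h)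
  have hcI : Fintype.card I = Nat.card W₁ - 1 := by
    rw [Fintype.card_subtype_compl, Fintype.card_subtype_eq, ← Nat.card_eq_fintype_card,
      Nat.card_congr eA, CommGroup.card_monoidHom_of_hasEnoughRootsOfUnity, hAc]
  have hcJ : Fintype.card J = Nat.card W₂ - 1 := by
    rw [Fintype.card_subtype_compl, Fintype.card_subtype_eq, ← Nat.card_eq_fintype_card,
      Nat.card_congr eB, CommGroup.card_monoidHom_of_hasEnoughRootsOfUnity, hBc]
  let β : I → J → G → ℂ := fun i j =>
    Cfsg.indFun (W₁ ⊔ W₂) (alpha i.1.1 j.1.1) - fun _ => 1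
  have hαmem : ∀ (φ ψ : ↥(W₁ ⊔ W₂) →* ℂˣ), alpha φ ψ ∈ BrauerInd.genChar ↥(W₁ ⊔ W₂) := by
    intro φ ψ
    have e : alpha φ ψ = (fun w => (((1 : ↥(W₁ ⊔ W₂) →* ℂˣ) w : ℂˣ) : ℂ)) - (fun w => (φ w : ℂ)) -
        (fun w => (ψ w : ℂ)) + fun w => (((φ * ψ) w : ℂˣ) : ℂ) := by
      funext w; simp [alpha]
    rw [e]
    exact add_mem (sub_mem (sub_mem (AddSubgroup.subset_closure (BrauerInd.isCharacter_linear _))
      (AddSubgroup.subset_closure (BrauerInd.isCharacter_linear _)))
      (AddSubgroup.subset_closure (BrauerInd.isCharacter_linear _)))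
      (AddSubgroup.subset_closure (BrauerInd.isCharacter_linear _))
  have hβmem : ∀ i j, β i j ∈ BrauerInd.genChar G := fun i j =>
    sub_mem (BrauerInd.indFun_mem_genChar _ (hαmem _ _))
      (AddSubgroup.subset_closure (isCharacter_of_irr (oneChar (G := G)).2))
  have hα0 : ∀ φ ψ : ↥(W₁ ⊔ W₂) →* ℂˣ, Cfsg.indFun (W₁ ⊔ W₂) (alpha φ ψ) 1 = 0 := fun φ ψ => by
    rw [indFun_apply_one]; simp [alpha]
  have hβ1 : ∀ i j, β i j 1 = -1 := fun i j => by
    show Cfsg.indFun (W₁ ⊔ W₂) (alpha i.1.1 j.1.1) 1 - 1 = -1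
    rw [hα0, zero_sub]
  have hS := fun (i i' : I) (j j' : J) => Cfsg.Agent.S1505.result W₁ W₂ hW i.1.1 i'.1.1 j.1.1 j'.1.1
    (hI1 i) (hI1 i') (hJ1 j) (hJ1 j') (fun w hw => ⟨i.1.2 w hw, i'.1.2 w hw⟩)
    (fun w hw => ⟨j.1.2 w hw, j'.1.2 w hw⟩)
  have hone1 : Cfsg.classInner (fun _ : G => (1 : ℂ)) (fun _ => 1) = 1 :=
    classInner_self (oneChar (G := G)).2
  have hβone : ∀ i j, Cfsg.classInner (β i j) (fun _ => 1) = 0 := fun i j => by
    show Cfsg.classInner (_ - _) _ = 0
    rw [inner_sub, hone1]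
    exact sub_eq_zero.mpr (hS i i j j).1
  have hββ : ∀ (i i' : I) (j j' : J), Cfsg.classInner (β i j) (β i' j') =
      (if i = i' then 1 else 0) + (if j = j' then 1 else 0) +
        (if i = i' then 1 else 0) * (if j = j' then 1 else 0) := fun i i' j j' => by
    have h1 := (hS i i' j j').2
    have h2 := (hS i i j j).1
    have h3 : Cfsg.classInner (fun _ => (1 : ℂ)) (Cfsg.indFun (W₁ ⊔ W₂) (alpha i'.1.1 j'.1.1)) = 1 := by
      rw [classInner_comm]
      exact (congrArg conj (hS i' i' j' j').1).trans (map_one _)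
    change Cfsg.classInner (Cfsg.indFun (W₁ ⊔ W₂) (alpha i.1.1 j.1.1))
      (Cfsg.indFun (W₁ ⊔ W₂) (alpha i'.1.1 j'.1.1)) = _ at h1
    change Cfsg.classInner (Cfsg.indFun (W₁ ⊔ W₂) (alpha i.1.1 j.1.1)) _ = _ at h2
    show Cfsg.classInner (_ - _) (_ - _) = _
    rw [inner_sub, inner_sub_right, inner_sub_right, h1, h2, h3, hone1]
    by_cases hi : i = i' <;> by_cases hj : j = j'
    all_goals
      have e1 : i = i' ↔ i.1.1 = i'.1.1 :=
        ⟨fun e => by rw [e], fun e => Subtype.ext (Subtype.ext e)⟩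
      have e2 : j = j' ↔ j.1.1 = j'.1.1 :=
        ⟨fun e => by rw [e], fun e => Subtype.ext (Subtype.ext e)⟩
      simp only [← e1, ← e2, hi, hj, if_true, if_false]
      ring
  have hT : ∀ i j, ∃ T : Finset (Signed G), T.card = 3 ∧ (∀ e ∈ T, flipSign e ∉ T) ∧
      β i j = ∑ e ∈ T, e.1 := fun i j => expand_three (hβmem i j) (by
    rw [hββ, if_pos rfl, if_pos rfl]; norm_num)
  choose T hT3 hTo hTsum using hT
  have hgrid : TriLines.Grid (flipSign (G := G)) T := by
    refine ⟨flipSign_invol, hT3, hTo, fun i j k hjk => ?_, fun i l j hil => ?_,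
      fun i l j k hil hjk => ?_⟩
    · refine col_of_inner (hT3 i j) (hT3 i k) (hTo i j) (hTo i k) ?_ ?_
      · rw [← hTsum, ← hTsum, hββ, if_pos rfl, if_neg hjk]; norm_num
      · rw [← hTsum, ← hTsum, hβ1, hβ1]
    · refine col_of_inner (hT3 i j) (hT3 l j) (hTo i j) (hTo l j) ?_ ?_
      · rw [← hTsum, ← hTsum, hββ, if_pos rfl, if_neg hil]; norm_num
      · rw [← hTsum, ← hTsum, hβ1, hβ1]
    · refine noncol_of_inner (hT3 i j) (hTo l k) ?_
      rw [← hTsum, ← hTsum, hββ, if_neg hil, if_neg hjk]; norm_num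
  have hpos1 : 1 < Nat.card W₁ := W₁.one_lt_card_iff_ne_bot.mpr hW.1
  have hpos2 : 1 < Nat.card W₂ := W₂.one_lt_card_iff_ne_bot.mpr hW.2.1
  obtain ⟨a, ha⟩ := Odd.of_dvd_nat hodd (Subgroup.card_dvd_of_le (le_sup_left : W₁ ≤ W₁ ⊔ W₂))
  obtain ⟨b, hb⟩ := Odd.of_dvd_nat hodd (Subgroup.card_dvd_of_le (le_sup_right : W₂ ≤ W₁ ⊔ W₂))
  have hnot : ¬ (Nat.card W₁ = 3 ∧ Nat.card W₂ = 3) := fun ⟨h1, h2⟩ => by
    have := TypeP.eq_of_card_eq_of_isCyclic (W := W₁ ⊔ W₂) le_sup_left le_sup_right (h1.trans h2.symm)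
    exact hW.1 (by rw [← inf_idem W₁]; nth_rw 2 [this]; exact hW.2.2.1)
  obtain ⟨f, hfinj, hfopp, hfT⟩ : ∃ f : I ⊕ J ⊕ (I × J) → Signed G,
      Function.Injective f ∧ (∀ x y, f x ≠ flipSign (f y)) ∧
      ∀ i j, T i j = {f (Sum.inl i), f (Sum.inr (Sum.inl j)), f (Sum.inr (Sum.inr (i, j)))} := by
    by_cases h4 : 4 ≤ Fintype.card J
    · exact hgrid.decompose (by omega) h4 (by omega)
    · obtain ⟨f, h1, h2, h3⟩ := hgrid.transpose.decompose (by omega) (by omega) (by omega)
      let e : I ⊕ J ⊕ (I × J) → J ⊕ I ⊕ (J × I) := fun x => match x with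
        | Sum.inl i => Sum.inr (Sum.inl i)
        | Sum.inr (Sum.inl j) => Sum.inl j
        | Sum.inr (Sum.inr (i, j)) => Sum.inr (Sum.inr (j, i))
      let e' : J ⊕ I ⊕ (J × I) → I ⊕ J ⊕ (I × J) := fun x => match x with
        | Sum.inl j => Sum.inr (Sum.inl j)
        | Sum.inr (Sum.inl i) => Sum.inl i
        | Sum.inr (Sum.inr (j, i)) => Sum.inr (Sum.inr (i, j))
      have hee : Function.LeftInverse e' e := by
        rintro (i | j | ⟨i, j⟩) <;> rfl
      refine ⟨f ∘ e, h1.comp hee.injective, fun x y => h2 (e x) (e y), fun i j => ?_⟩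
      · rw [h3 j i]
        exact Finset.insert_comm _ _ _
  let one : Signed G := ⟨fun _ => 1, Or.inl (oneChar (G := G)).2⟩
  have honeT : ∀ i j, one ∉ T i j ∧ flipSign one ∉ T i j := by
    intro i j
    have h := hβone i j
    rw [hTsum i j, show (fun _ : G => (1 : ℂ)) = ∑ e ∈ ({one} : Finset (Signed G)), e.1 by simp [one],
      inner_sums, sub_eq_zero] at h
    have h' : (T i j ∩ {one}).card = (TriLines.opp flipSign (T i j) {one}).card := by exact_mod_cast h
    constructor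
    · intro hm
      obtain ⟨q, hq⟩ := Finset.card_pos.mp
        (h' ▸ Finset.card_pos.mpr ⟨one, Finset.mem_inter.mpr ⟨hm, Finset.mem_singleton_self _⟩⟩)
      obtain ⟨hqT, hq1⟩ := Finset.mem_filter.mp hq
      rw [← Finset.mem_singleton.mp hq1] at hm
      exact hTo i j q hqT hm
    · intro hm
      have : flipSign one ∈ TriLines.opp flipSign (T i j) {one} :=
        Finset.mem_filter.mpr ⟨hm, Finset.mem_singleton.mpr (flipSign_invol one)⟩
      obtain ⟨q, hq⟩ := Finset.card_pos.mp (h'.symm ▸ Finset.card_pos.mpr ⟨_, this⟩)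
      obtain ⟨hqT, hq1⟩ := Finset.mem_inter.mp hq
      rw [Finset.mem_singleton.mp hq1] at hqT
      exact hTo i j one hqT hm
  obtain ⟨i₀⟩ : Nonempty I := Fintype.card_pos_iff.mp (by omega)
  obtain ⟨j₀⟩ : Nonempty J := Fintype.card_pos_iff.mp (by omega)
  have hfone : ∀ x, f x ≠ one ∧ f x ≠ flipSign one := by
    have hmem : ∀ x, ∃ i j, f x ∈ T i j := by
      rintro (i | j | ⟨i, j⟩)
      exacts [⟨i, j₀, by rw [hfT]; simp⟩, ⟨i₀, j, by rw [hfT]; simp⟩, ⟨i, j, by rw [hfT]; simp⟩]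
    intro x
    obtain ⟨i, j, hx⟩ := hmem x
    exact ⟨fun h => (honeT i j).1 (h ▸ hx), fun h => (honeT i j).2 (h ▸ hx)⟩
  let key : TrivOn B → TrivOn A → Option (I ⊕ J ⊕ (I × J)) := fun i j =>
    if hi : i = u₁ then (if hj : j = u₂ then none else some (Sum.inr (Sum.inl ⟨j, hj⟩)))
    else (if hj : j = u₂ then some (Sum.inl ⟨i, hi⟩) else some (Sum.inr (Sum.inr (⟨i, hi⟩, ⟨j, hj⟩))))
  let val : Option (I ⊕ J ⊕ (I × J)) → Signed G := fun o => match o with
    | none => one
    | some (Sum.inl i) => flipSign (f (Sum.inl i))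
    | some (Sum.inr (Sum.inl j)) => flipSign (f (Sum.inr (Sum.inl j)))
    | some (Sum.inr (Sum.inr p)) => f (Sum.inr (Sum.inr p))
  have hvalinj : ∀ o o', val o = val o' ∨ flipSign (val o) = val o' → o = o' := by
    have hform : ∀ o, (o = none ∧ val o = one) ∨
        ∃ x, o = some x ∧ (val o = f x ∨ val o = flipSign (f x)) := by
      rintro (_ | i | j | p)
      · exact Or.inl ⟨rfl, rfl⟩
      · exact Or.inr ⟨_, rfl, Or.inr rfl⟩
      · exact Or.inr ⟨_, rfl, Or.inr rfl⟩
      · exact Or.inr ⟨_, rfl, Or.inl rfl⟩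
    intro o o' h
    rcases hform o with ⟨rfl, e⟩ | ⟨x, rfl, e⟩ <;> rcases hform o' with ⟨rfl, e'⟩ | ⟨y, rfl, e'⟩
    · rfl
    · exfalso
      rcases e' with e' | e' <;> rw [e, e'] at h <;> rcases h with h | h
      · exact (hfone y).1 h.symm
      · exact (hfone y).2 h.symm
      · exact (hfone y).2 (by rw [h, flipSign_invol])
      · exact (hfone y).1 (flipSign_invol.injective h).symm
    · exfalso
      rcases e with e | e <;> rw [e, e'] at h <;> rcases h with h | h
      · exact (hfone x).1 h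
      · exact (hfone x).2 (by rw [← h, flipSign_invol])
      · exact (hfone x).2 (by rw [← h, flipSign_invol])
      · exact (hfone x).1 (by rw [← h, flipSign_invol])
    · have : f x = f y := by
        rcases e with e | e <;> rcases e' with e' | e' <;> rw [e, e'] at h <;> rcases h with h | h
        · exact h
        · exact absurd h.symm (hfopp y x)
        · exact absurd h (hfopp x y)
        · exact flipSign_invol.injective h
        · exact absurd h.symm (hfopp y x)
        · rwa [flipSign_invol] at h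
        · exact flipSign_invol.injective h
        · rw [flipSign_invol] at h; exact absurd h (hfopp x y)
      rw [hfinj this]
  have hkeyinj : ∀ i i' j j', key i j = key i' j' → i = i' ∧ j = j' := by
    let unkey : Option (I ⊕ J ⊕ (I × J)) → TrivOn B × TrivOn A := fun o => match o with
      | none => (u₁, u₂)
      | some (Sum.inl i) => (i.1, u₂)
      | some (Sum.inr (Sum.inl j)) => (u₁, j.1)
      | some (Sum.inr (Sum.inr p)) => (p.1.1, p.2.1)
    have hun : ∀ i j, unkey (key i j) = (i, j) := by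
      intro i j
      by_cases hi : i = u₁ <;> by_cases hj : j = u₂
      · rw [show key i j = none from (dif_pos hi).trans (dif_pos hj), hi, hj]
      · rw [show key i j = some (Sum.inr (Sum.inl ⟨j, hj⟩)) from (dif_pos hi).trans (dif_neg hj), hi]
      · rw [show key i j = some (Sum.inl ⟨i, hi⟩) from (dif_neg hi).trans (dif_pos hj), hj]
      · rw [show key i j = some (Sum.inr (Sum.inr (⟨i, hi⟩, ⟨j, hj⟩))) from
          (dif_neg hi).trans (dif_neg hj)]
    intro i i' j j' h
    exact Prod.ext_iff.mp ((hun i j).symm.trans ((congrArg unkey h).trans (hun i' j')))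
  choose dφ dψ hdec using hsplit
  let χ : (↥(W₁ ⊔ W₂) →* ℂˣ) → G → ℂ := fun ω => (val (key (dφ ω) (dψ ω))).1
  have hχ : ∀ (i : TrivOn B) (j : TrivOn A), χ (i.1 * j.1) = (val (key i j)).1 := fun i j => by
    obtain ⟨h1, h2⟩ := huniq _ _ _ _ (hdec (i.1 * j.1)).symm
    show (val (key _ _)).1 = _
    rw [h1, h2]
  have horth : ∀ ω ω', Cfsg.classInner (χ ω) (χ ω') = if ω = ω' then 1 else 0 := by
    intro ω ω'
    show Cfsg.classInner (val (key (dφ ω) (dψ ω))).1 (val (key (dφ ω') (dψ ω'))).1 = _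
    rw [signed_inner]
    by_cases h : ω = ω'
    · subst h; rw [if_pos rfl, if_neg (flipSign_ne _), if_pos rfl, sub_zero]
    · have hne : key (dφ ω) (dψ ω) ≠ key (dφ ω') (dψ ω') := fun e => h (by
        obtain ⟨h1, h2⟩ := hkeyinj _ _ _ _ e
        rw [hdec ω, hdec ω', h1, h2])
      rw [if_neg h, if_neg (fun e => hne (hvalinj _ _ (Or.inl e))),
        if_neg (fun e => hne (hvalinj _ _ (Or.inr e))), sub_zero]
  have hkey11 : key u₁ u₂ = none := by simp [key]
  have hχ1 : χ 1 = fun _ => 1 := by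
    have := hχ u₁ u₂
    rw [hkey11] at this
    rw [show (1 : ↥(W₁ ⊔ W₂) →* ℂˣ) = u₁.1 * u₂.1 from (hom_one_mul _).symm]
    exact this
  have hind : ∀ φ ψ : ↥(W₁ ⊔ W₂) →* ℂˣ, φ ≠ 1 → ψ ≠ 1 →
      (∀ w : ↥(W₁ ⊔ W₂), (w : G) ∈ W₂ → φ w = 1) → (∀ w : ↥(W₁ ⊔ W₂), (w : G) ∈ W₁ → ψ w = 1) →
      Cfsg.indFun (W₁ ⊔ W₂) (alpha φ ψ) = fun g => 1 - χ φ g - χ ψ g + χ (φ * ψ) g := by
    intro φ ψ hφ hψ hφ2 hψ1
    let i : I := ⟨⟨φ, fun w hw => hφ2 w hw⟩, fun e => hφ (congrArg Subtype.val e)⟩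
    let j : J := ⟨⟨ψ, fun w hw => hψ1 w hw⟩, fun e => hψ (congrArg Subtype.val e)⟩
    have h1 : χ φ = (flipSign (f (Sum.inl i))).1 := by
      have := hχ i.1 u₂
      rw [show key i.1 u₂ = some (Sum.inl i) by simp [key, i.2]] at this
      rwa [show i.1.1 * u₂.1 = φ from hom_mul_one φ] at this
    have h2 : χ ψ = (flipSign (f (Sum.inr (Sum.inl j)))).1 := by
      have := hχ u₁ j.1
      rw [show key u₁ j.1 = some (Sum.inr (Sum.inl j)) by simp [key, j.2]] at this
      rwa [show u₁.1 * j.1.1 = ψ from hom_one_mul ψ] at this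
    have h3 : χ (φ * ψ) = (f (Sum.inr (Sum.inr (i, j)))).1 := by
      have := hχ i.1 j.1
      rwa [show key i.1 j.1 = some (Sum.inr (Sum.inr (i, j))) by simp [key, i.2, j.2]] at this
    funext g
    have hs := congrFun (hTsum i j) g
    rw [hfT i j, Finset.sum_insert (by
        simp only [Finset.mem_insert, Finset.mem_singleton]
        rintro (h | h) <;> exact absurd (hfinj h) (by simp)),
      Finset.sum_pair (fun h => by exact absurd (hfinj h) (by simp))] at hs
    change Cfsg.indFun (W₁ ⊔ W₂) (alpha φ ψ) g - 1 = _ at hs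
    simp only [Pi.add_apply] at hs
    rw [h1, h2, h3]
    show _ = 1 - -(f (Sum.inl i)).1 g - -(f (Sum.inr (Sum.inl j))).1 g + _
    linear_combination hs
  refine ⟨χ, ⟨fun ω => (val _).2, fun ω ω' => by convert horth ω ω', hχ1, ?_, hind⟩⟩
  intro ω w hw₁ hw₂
  have hcf : Cfsg.IsClassFunction G (χ ω) := by
    rcases (val (key (dφ ω) (dψ ω))).2 with h | h
    · exact isClassFunction (isCharacter_of_irr h)
    · intro g k
      have := isClassFunction (isCharacter_of_irr h) g k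
      simpa [χ] using this
  refine sub_eq_zero.mp (vanish_of_inner hW (fun v => χ ω v - (ω v : ℂ)) (fun φ ψ hφ hψ => ?_) w hw₁ hw₂)
  have hsub : Cfsg.classInner (fun v : ↥(W₁ ⊔ W₂) => χ ω v - (ω v : ℂ)) (alpha φ ψ) =
      Cfsg.classInner (fun v : ↥(W₁ ⊔ W₂) => χ ω v) (alpha φ ψ) -
        Cfsg.classInner (fun v => (ω v : ℂ)) (alpha φ ψ) := by
    simp only [classInner_eq, sub_mul, Finset.sum_sub_distrib, mul_sub]
  rw [hsub, ← classInner_indFun' _ _ hcf]
  by_cases h1 : φ = 1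
  · have : alpha φ ψ = fun _ => 0 := funext fun v => by simp [alpha, h1]
    rw [classInner_indFun' _ _ hcf, this]
    simp [classInner_eq]
  by_cases h2 : ψ = 1
  · have : alpha φ ψ = fun _ => 0 := funext fun v => by simp [alpha, h2]
    rw [classInner_indFun' _ _ hcf, this]
    simp [classInner_eq]
  rw [hind φ ψ h1 h2 hφ hψ, inner_expand, horth, horth, horth]
  have e : alpha φ ψ = fun v => 1 - (φ v : ℂ) - (ψ v : ℂ) + (((φ * ψ) v : ℂˣ) : ℂ) :=
    funext fun v => by simp [alpha]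
  rw [e, inner_expand, inner_hom, inner_hom, inner_hom, ← hχ1, horth,
    show (fun _ : ↥(W₁ ⊔ W₂) => (1 : ℂ)) = fun v => (((1 : ↥(W₁ ⊔ W₂) →* ℂˣ) v : ℂˣ) : ℂ) from
      funext fun v => by simp, inner_hom]
  ring

end CfsgLib.CyclicTI
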