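import Mathlib
import Cfsg.Prelude.Def_OddOrderChar
import Cfsg.Agent.CharBasics.Extra
import Cfsg.Agent.CharBasics.Induced
import Cfsg.Agent.BrauerInd.FSInd
import Cfsg.Agent.Exceptional.TICoverFam
import Cfsg.Agent.OddCoh.Central

/-!
The sets `inducedIrrAbove K A`: closure properties, the degree sum over a set containing one of them, and a bound
on the degrees of the characters above a central section.
-/

set_option autoImplicit false

namespace CfsgLib.InducedAbove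

open CfsgLib.CharBasics
open scoped ComplexConjugate

universe u

variable {L : Type u} [Group L] [Fintype L] (K : Subgroup L)

theorem anti {A B : Subgroup L} (h : A ≤ B) :
    Cfsg.inducedIrrAbove K B ⊆ Cfsg.inducedIrrAbove K A := by
  rintro φ ⟨θ, h1, h2, h3, h4⟩
  exact ⟨θ, h1, h2, fun a ha => h3 a (h ha), h4⟩

theorem finite (A : Subgroup L) : (Cfsg.inducedIrrAbove K A).Finite := by
  refine (Set.finite_range fun θ : Cfsg.IrrCharacter K => Cfsg.indFun K (θ : K → ℂ)).subset ?_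
  rintro φ ⟨θ, hθ, -, -, rfl⟩
  exact ⟨⟨θ, hθ⟩, rfl⟩

theorem conj_mem (A : Subgroup L) {φ : L → ℂ} (hφ : φ ∈ Cfsg.inducedIrrAbove K A) :
    Cfsg.conjFun φ ∈ Cfsg.inducedIrrAbove K A := by
  haveI := Fintype.ofFinite K
  obtain ⟨θ, hθ, hne, hk, rfl⟩ := hφ
  refine ⟨Cfsg.conjFun θ, CfsgLib.BrauerInd.isIrr_star hθ, fun he => hne ?_, fun a ha => ?_,
    CfsgLib.Exceptional.conjFun_indFun K θ⟩
  · funext k
    have h := congrArg conj (congrFun he k)
    simpa [Cfsg.conjFun] using h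
  · simp only [Cfsg.conjFun, hk a ha]

theorem normal_sub [K.Normal] (A : Subgroup L) [A.Normal] : (A.subgroupOf K).Normal :=
  (inferInstance : A.Normal).subgroupOf K

theorem exists_linear {X : Type u} [Group X] [Finite X] [Group.IsSolvable X] (N : Subgroup X) [N.Normal]
    (hN : N ≠ ⊤) :
    ∃ θ : X → ℂ, Cfsg.IsIrrCharacter X θ ∧ θ ≠ (fun _ => 1) ∧ θ 1 = 1 ∧ ∀ a ∈ N, θ a = θ 1 := by
  haveI : Nontrivial (X ⧸ N) := QuotientGroup.nontrivial_iff.2 hN
  haveI : Group.IsSolvable (X ⧸ N) :=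
    Group.isSolvable_of_surjective (QuotientGroup.mk'_surjective N)
  obtain ⟨l, hl⟩ : ∃ l : (X ⧸ N) →* ℂˣ, l ≠ 1 := by
    by_contra h
    push Not at h
    haveI : Subsingleton ((X ⧸ N) →* ℂˣ) := ⟨fun l l' => (h l).trans (h l').symm⟩
    have h1 := CfsgLib.Exceptional.card_hom_units (X ⧸ N)
    rw [Nat.card_of_subsingleton (1 : (X ⧸ N) →* ℂˣ)] at h1
    have hab : Nontrivial (Abelianization (X ⧸ N)) :=
      QuotientGroup.nontrivial_iff.2 (Group.IsSolvable.commutator_lt_top_of_nontrivial (X ⧸ N)).ne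
    have := Finite.one_lt_card (α := Abelianization (X ⧸ N))
    omega
  refine ⟨_, CfsgLib.Exceptional.isIrr_of_hom (l.comp (QuotientGroup.mk' N)), fun h => hl ?_, ?_, fun a ha => ?_⟩
  · refine MonoidHom.ext fun b => ?_
    induction b using QuotientGroup.induction_on with
    | _ x => exact Units.ext (congrFun h x)
  · simp
  · have : (a : X ⧸ N) = 1 := (QuotientGroup.eq_one_iff a).2 ha
    simp [this]

/-- Some member of the set has degree the index of `K`. -/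
theorem exists_degree_index [K.Normal] (hsolv : Group.IsSolvable K) (A : Subgroup L) [A.Normal] (hA : A < K) :
    ∃ φ ∈ Cfsg.inducedIrrAbove K A, φ 1 = (K.index : ℂ) := by
  haveI := normal_sub K A
  haveI := hsolv
  have hN : A.subgroupOf K ≠ ⊤ := fun h => hA.not_ge (Subgroup.subgroupOf_eq_top.1 h)
  obtain ⟨θ, h1, h2, h3, h4⟩ := exists_linear (A.subgroupOf K) hN
  exact ⟨_, ⟨θ, h1, h2, fun a ha => h4 a (Subgroup.mem_subgroupOf.2 ha), rfl⟩,
    by rw [indFun_apply_one, h3, mul_one]⟩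

open Classical in
/-- The squared degrees of the characters with `N` in the kernel add up to the index of `N`. -/
theorem sum_ker_sq {X : Type u} [Group X] [Fintype X] [Fintype (Cfsg.IrrCharacter X)] (N : Subgroup X)
    [N.Normal] :
    ∑ θ ∈ Finset.univ.filter (fun θ : Cfsg.IrrCharacter X => ∀ m ∈ N, (θ : X → ℂ) m = (θ : X → ℂ) 1),
        (Cfsg.charDegree (θ : X → ℂ)) ^ 2 = N.index := by
  classical
  haveI := Fintype.ofFinite N
  have h : ∑ θ : Cfsg.IrrCharacter X, (Cfsg.charDegree (θ : X → ℂ) : ℂ) * ∑ m : N, (θ : X → ℂ) m =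
      (Nat.card X : ℂ) := by
    simp only [Finset.mul_sum]
    rw [Finset.sum_comm, Finset.sum_eq_single (1 : N)]
    · rw [← sum_sq_degree (G := X), Nat.cast_sum]
      refine Finset.sum_congr rfl fun θ _ => ?_
      rw [Subgroup.coe_one, apply_one (isCharacter_of_irr θ.2)]
      push_cast; ring
    · exact fun z _ hz => sum_mul_degree (fun e => hz (Subtype.ext e))
    · exact fun h => absurd (Finset.mem_univ _) h
  have h2 : ∀ θ : Cfsg.IrrCharacter X, (Cfsg.charDegree (θ : X → ℂ) : ℂ) * ∑ m : N, (θ : X → ℂ) m =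
      ((Nat.card N * (if ∀ m ∈ N, (θ : X → ℂ) m = (θ : X → ℂ) 1 then Cfsg.charDegree (θ : X → ℂ) ^ 2 else 0) :
        ℕ) : ℂ) := fun θ => by
    rcases sum_normal_irr N θ with ⟨hk, hs⟩ | ⟨hk, hs⟩
    · have h1 := hs 1
      simp only [one_mul] at h1
      rw [if_pos hk, h1, apply_one (isCharacter_of_irr θ.2)]
      push_cast; ring
    · have h1 := hs 1
      simp only [one_mul] at h1
      rw [if_neg hk, h1]; simp
  rw [Finset.sum_congr rfl (fun θ _ => h2 θ), ← Nat.cast_sum, ← Finset.mul_sum, ← N.card_mul_index] at h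
  have h' := Nat.eq_of_mul_eq_mul_left Nat.card_pos (Nat.cast_injective (R := ℂ) h)
  rw [← h', Finset.sum_filter]

open Classical in
/-- The fibre of a member of the set. -/
theorem sq_eq_fibre [K.Normal] [Fintype (Cfsg.IrrCharacter K)]
    (horth : ∀ χ ∈ Cfsg.inducedIrrAbove K ⊥, ∀ φ ∈ Cfsg.inducedIrrAbove K ⊥, χ ≠ φ → Cfsg.classInner χ φ = 0)
    {φ : L → ℂ} (hφ : φ ∈ Cfsg.inducedIrrAbove K ⊥) {n : ℕ} (hn : Cfsg.classInner φ φ = (n : ℂ)) :
    (Cfsg.charDegree φ) ^ 2 = n * (K.index * ∑ θ ∈ Finset.univ.filter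
      (fun θ : Cfsg.IrrCharacter K => (θ : K → ℂ) ≠ (fun _ => 1) ∧ Cfsg.indFun K (θ : K → ℂ) = φ),
        (Cfsg.charDegree (θ : K → ℂ)) ^ 2) := by
  classical
  haveI := Fintype.ofFinite K
  have hφch : Cfsg.IsCharacter L φ := by
    obtain ⟨θ₀, hθ₀, -, -, rfl⟩ := hφ
    exact isCharacter_indFun K (isCharacter_of_irr hθ₀)
  have hrch := isCharacter_restrict hφch K
  have hinner : ∀ θ : Cfsg.IrrCharacter K, Cfsg.classInner (fun k : K => φ k) (θ : K → ℂ) =
      if (θ : K → ℂ) ≠ (fun _ => 1) ∧ Cfsg.indFun K (θ : K → ℂ) = φ then (n : ℂ) else 0 := fun θ => by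
    rw [← classInner_indFun' K _ (isClassFunction hφch)]
    by_cases h1 : (θ : K → ℂ) = fun _ => 1
    · rw [if_neg (fun h => h.1 h1), h1]
      obtain ⟨θ₀, hθ₀, hne, -, rfl⟩ := hφ
      rw [classInner_indFun K θ₀ (isClassFunction_indFun K _)]
      have he : (fun k : K => Cfsg.indFun K (fun _ : K => (1 : ℂ)) k) = (K.index : ℂ) • fun _ => 1 := by
        funext k
        rw [CfsgLib.Exceptional.indFun_one_apply, if_pos k.2, Pi.smul_apply, smul_eq_mul, mul_one]
      rw [he, classInner_comm ((K.index : ℂ) • fun _ => 1) θ₀, classInner_smul_left,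
        classInner_ne isIrrCharacter_one hθ₀ (Ne.symm hne), mul_zero, map_zero]
    · by_cases h2 : Cfsg.indFun K (θ : K → ℂ) = φ
      · rw [if_pos ⟨h1, h2⟩, h2, hn]
      · rw [if_neg (fun h => h2 h.2)]
        exact horth φ hφ _ ⟨θ, θ.2, h1, fun a ha => by
          rw [Subgroup.mem_bot] at ha
          rw [show a = 1 from Subtype.ext ha], rfl⟩ (Ne.symm h2)
  have hexp := congrFun (classFun_expand (isClassFunction hrch)) 1
  simp only [Finset.sum_apply, Pi.smul_apply, smul_eq_mul, hinner, ite_mul, zero_mul, OneMemClass.coe_one,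
    ← Finset.sum_filter] at hexp
  rw [apply_one hφch] at hexp
  have hsum : Cfsg.charDegree φ = n * ∑ θ ∈ Finset.univ.filter
      (fun θ : Cfsg.IrrCharacter K => (θ : K → ℂ) ≠ (fun _ => 1) ∧ Cfsg.indFun K (θ : K → ℂ) = φ),
        Cfsg.charDegree (θ : K → ℂ) := by
    rw [← @Nat.cast_inj ℂ, Nat.cast_mul, Nat.cast_sum, hexp, Finset.mul_sum]
    exact Finset.sum_congr rfl fun θ _ => by rw [apply_one (isCharacter_of_irr θ.2)]
  have hdeg : ∀ θ ∈ Finset.univ.filter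
      (fun θ : Cfsg.IrrCharacter K => (θ : K → ℂ) ≠ (fun _ => 1) ∧ Cfsg.indFun K (θ : K → ℂ) = φ),
      Cfsg.charDegree φ = K.index * Cfsg.charDegree (θ : K → ℂ) := fun θ hθ => by
    rw [← (Finset.mem_filter.1 hθ).2.2, charDegree_indFun K (isCharacter_of_irr θ.2)]
  rw [sq]
  nth_rw 2 [hsum]
  rw [Finset.mul_sum, Finset.mul_sum, Finset.mul_sum, Finset.mul_sum]
  refine Finset.sum_congr (by ext; simp) fun θ hθ => ?_
  rw [hdeg θ (by simpa using hθ)]
  ring

open Classical in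
/-- The degree sum over a set containing `inducedIrrAbove K A`. -/
theorem index_le_sum [K.Normal] (A : Subgroup L) [A.Normal]
    (horth : ∀ χ ∈ Cfsg.inducedIrrAbove K ⊥, ∀ φ ∈ Cfsg.inducedIrrAbove K ⊥, χ ≠ φ → Cfsg.classInner χ φ = 0)
    (S₁ : Finset (L → ℂ)) (hS₁ : ↑S₁ ⊆ Cfsg.inducedIrrAbove K ⊥) (hA : Cfsg.inducedIrrAbove K A ⊆ ↑S₁)
    (n : (L → ℂ) → ℕ) (hn : ∀ φ ∈ S₁, Cfsg.classInner φ φ = (n φ : ℂ)) (hn0 : ∀ φ ∈ S₁, 0 < n φ) :
    (K.index : ℝ) * ((A.relIndex K : ℝ) - 1) ≤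
      ∑ φ ∈ S₁, (Cfsg.charDegree φ : ℝ) ^ 2 / (n φ : ℝ) := by
  classical
  haveI := normal_sub K A
  haveI := Fintype.ofFinite (Cfsg.IrrCharacter K)
  set P : Cfsg.IrrCharacter K → Prop := fun θ =>
    ∀ m ∈ A.subgroupOf K, (θ : K → ℂ) m = (θ : K → ℂ) 1
  set T := (Finset.univ.filter P).erase oneChar
  have hone : oneChar ∈ Finset.univ.filter P := Finset.mem_filter.2 ⟨Finset.mem_univ _, fun m _ => rfl⟩
  have hT : ((∑ θ ∈ T, Cfsg.charDegree (θ : K → ℂ) ^ 2 : ℕ) : ℝ) = (A.relIndex K : ℝ) - 1 := by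
    have h := sum_ker_sq (A.subgroupOf K)
    rw [← Finset.add_sum_erase _ _ hone] at h
    have h1 : Cfsg.charDegree ((oneChar : Cfsg.IrrCharacter K) : K → ℂ) = 1 := by
      simp [Cfsg.charDegree, oneChar_apply]
    rw [h1, one_pow] at h
    rw [Subgroup.relIndex, ← h]
    push_cast; ring
  have hmaps : ∀ θ ∈ T, Cfsg.indFun K (θ : K → ℂ) ∈ S₁ := fun θ hθ => by
    obtain ⟨hne, hP⟩ := Finset.mem_erase.1 hθ
    exact hA ⟨θ, θ.2, fun h => hne (Subtype.ext h), fun a ha =>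
      (Finset.mem_filter.1 hP).2 a (Subgroup.mem_subgroupOf.2 ha), rfl⟩
  rw [← hT, ← Finset.sum_fiberwise_of_maps_to hmaps, Nat.cast_sum, Finset.mul_sum]
  refine Finset.sum_le_sum fun φ hφ => ?_
  have h := sq_eq_fibre K horth (hS₁ hφ) (hn φ hφ)
  have hpos : (0 : ℝ) < n φ := by exact_mod_cast hn0 φ hφ
  rw [le_div_iff₀ hpos]
  have hle : ∑ θ ∈ T.filter (fun θ : Cfsg.IrrCharacter K => Cfsg.indFun K (θ : K → ℂ) = φ), Cfsg.charDegree (θ : K → ℂ) ^ 2 ≤
      ∑ θ ∈ Finset.univ.filter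
      (fun θ : Cfsg.IrrCharacter K => (θ : K → ℂ) ≠ (fun _ => 1) ∧ Cfsg.indFun K (θ : K → ℂ) = φ),
        (Cfsg.charDegree (θ : K → ℂ)) ^ 2 :=
    by
      refine Finset.sum_le_sum_of_subset ?_
      intro θ hθ
      obtain ⟨h1, h2⟩ := Finset.mem_filter.1 hθ
      exact Finset.mem_filter.2 ⟨Finset.mem_univ _,
        fun h => (Finset.mem_erase.1 h1).1 (Subtype.ext h), h2⟩
  have h3 := Nat.mul_le_mul_left (n φ) (Nat.mul_le_mul_left K.index hle)
  rw [← h] at h3
  have h4 : ((n φ * (K.index * ∑ θ ∈ T.filter (fun θ : Cfsg.IrrCharacter K => Cfsg.indFun K (θ : K → ℂ) = φ),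
      Cfsg.charDegree (θ : K → ℂ) ^ 2) : ℕ) : ℝ) ≤ ((Cfsg.charDegree φ ^ 2 : ℕ) : ℝ) := Nat.cast_le.2 h3
  push_cast at h4 ⊢
  linarith

/-- The degree of a character above a central section. -/
theorem sq_degree_le {X : Type u} [Group X] [Fintype X] (B C D : Subgroup X) [B.Normal] (hBD : B ≤ D)
    (hDC : D ≤ C) (hcent : ∀ x ∈ D, ∀ y ∈ C, x * y * x⁻¹ * y⁻¹ ∈ B) (θ : Cfsg.IrrCharacter X)
    (hker : ∀ b ∈ B, (θ : X → ℂ) b = (θ : X → ℂ) 1) :
    Cfsg.charDegree (θ : X → ℂ) ^ 2 ≤ C.index ^ 2 * D.relIndex C := by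
  classical
  obtain ⟨ψ, hψ⟩ := exists_quotient_irr θ B hker
  haveI := Fintype.ofFinite (X ⧸ B)
  have hd : Cfsg.charDegree (ψ : X ⧸ B → ℂ) = Cfsg.charDegree (θ : X → ℂ) := by
    rw [← @Nat.cast_inj ℂ, ← apply_one (isCharacter_of_irr ψ.2), ← apply_one (isCharacter_of_irr θ.2)]
    exact hψ 1
  set q := QuotientGroup.mk' B
  have hkerq : q.ker = B := QuotientGroup.ker_mk' B
  haveI := Fintype.ofFinite (C.map q)
  obtain ⟨lam, hlam⟩ := exists_restrict_constituent (C.map q) ψ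
  have h1 := (degree_le_index_mul (C.map q) (isCharacter_of_irr lam.2) ψ hlam).1
  have hZ : (D.map q).subgroupOf (C.map q) ≤ Subgroup.center (C.map q) := by
    intro z hz
    rw [Subgroup.mem_center_iff]
    intro w
    obtain ⟨x, hx, hzx⟩ := Subgroup.mem_map.1 (Subgroup.mem_subgroupOf.1 hz)
    obtain ⟨y, hy, hwy⟩ := Subgroup.mem_map.1 w.2
    refine Subtype.ext ?_
    have he : q (x * y * x⁻¹ * y⁻¹) = 1 := (QuotientGroup.eq_one_iff _).2 (hcent x hx y hy)
    rw [map_mul, map_mul, map_mul, map_inv, map_inv, hzx, hwy] at he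
    show (w : X ⧸ B) * z = z * w
    rw [mul_inv_eq_one, mul_inv_eq_iff_eq_mul] at he
    exact he.symm
  have h2 := CfsgLib.OddCoh.sq_degree_mul_le _ hZ lam
  rw [← Subgroup.card_mul_index ((D.map q).subgroupOf (C.map q)),
    mul_comm (Nat.card ↥((D.map q).subgroupOf (C.map q)))] at h2
  have h3 := Nat.le_of_mul_le_mul_right h2 Nat.card_pos
  have e1 : (C.map q).index = C.index :=
    Subgroup.index_map_eq C (QuotientGroup.mk'_surjective B) (by rw [hkerq]; exact hBD.trans hDC)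
  have e2 : ((D.map q).subgroupOf (C.map q)).index = D.relIndex C := by
    rw [← Subgroup.relIndex, Subgroup.relIndex_map_map, hkerq, sup_eq_left.2 hBD,
      sup_eq_left.2 (hBD.trans hDC)]
  rw [hd, e1] at h1
  rw [e2] at h3
  calc Cfsg.charDegree (θ : X → ℂ) ^ 2 ≤ (C.index * Cfsg.charDegree (lam : C.map q → ℂ)) ^ 2 :=
        Nat.pow_le_pow_left h1 2
    _ = C.index ^ 2 * Cfsg.charDegree (lam : C.map q → ℂ) ^ 2 := mul_pow _ _ _
    _ ≤ C.index ^ 2 * D.relIndex C := Nat.mul_le_mul_left _ h3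

end CfsgLib.InducedAbove
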